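import Cfsg.Agent.Lib.H6.SecP

/-! Harada's four generator theorem: the case of a normal four-group inside the self-centralizing
elementary group of order eight (helper6). -/

set_option autoImplicit false
set_option linter.style.haveILetI false
open Cfsg Subgroup
open scoped Pointwise commutatorElement

namespace Cfsg.Agent.H6

variable {G : Type*} [Group G]

theorem mem_Phi_iff_of_comm {A : Subgroup G} (hc : ∀ a ∈ A, ∀ b ∈ A, a * b = b * a) {y : G} :
    y ∈ H9.Phi 2 A ↔ ∃ b ∈ A, b * b = y := by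
  refine ⟨fun hy => ?_, fun ⟨b, hb, e⟩ => by rw [← e, ← pow_two]; exact H9.pow_mem_Phi hb⟩
  let B : Subgroup G :=
    { carrier := {y | ∃ b ∈ A, b * b = y}
      one_mem' := ⟨1, A.one_mem, mul_one 1⟩
      mul_mem' := by
        rintro _ _ ⟨b, hb, rfl⟩ ⟨c, hc', rfl⟩
        exact ⟨b * c, A.mul_mem hb hc', (show Commute c b from hc _ hc' _ hb).mul_mul_mul_comm _ _⟩
      inv_mem' := by
        rintro _ ⟨b, hb, rfl⟩
        exact ⟨b⁻¹, A.inv_mem hb, by group⟩ }
  have : H9.Phi 2 A ≤ B := H9.Phi_le_iff.2 ⟨fun x hx => ⟨x, hx, (pow_two x).symm⟩,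
    fun x hx y hy => by
      rw [commutatorElement_eq_one_iff_mul_comm.2 (hc x hx y hy)]; exact B.one_mem⟩
  exact this hy

theorem Phi_normal (A : Subgroup G) [A.Normal] : (H9.Phi 2 A).Normal :=
  normalizer_eq_top_iff.1 (top_le_iff.1
    ((le_normalizer_of_normal (H := A)).trans (H9.normalizer_le_normalizer_Phi A)))

/-- The elements of a four-group section. -/
theorem Sec.four_cases [Finite G] {M D : Subgroup G} (h : Sec M D) (h4 : D.relIndex M ≤ 4)
    {g k : G} (hg : g ∈ M) (hk : k ∈ M) (hgD : g ∉ D) (hkD : k ∉ D) (hgk : k * g⁻¹ ∉ D)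
    {x : G} (hx : x ∈ M) : x ∈ D ∨ x * g⁻¹ ∈ D ∨ x * k⁻¹ ∈ D ∨ x * k⁻¹ * g⁻¹ ∈ D := by
  have h1 := card_sup_zpowers_eq (h.norm hg) (h.sq g hg) hgD
  have hle : D ⊔ zpowers g ≤ M := sup_le h.le (by simpa using hg)
  have hn : M ≤ normalizer ((D ⊔ zpowers g : Subgroup G) : Set G) :=
    H9.le_normalizer_of_commutator_le hle (h.commutator_le.trans le_sup_left)
  have hk' : k ∉ D ⊔ zpowers g := by
    rw [mem_sup_zpowers (h.norm hg) (h.sq g hg)]; tauto
  have h2 := card_sup_zpowers_eq (hn hk) (mem_sup_left (h.sq k hk)) hk'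
  have h3 : D ⊔ zpowers g ⊔ zpowers k = M := by
    refine eq_of_le_of_card_ge (sup_le hle (by simpa using hk)) ?_
    rw [h2, h1, h.card_eq]
    nlinarith
  rw [← h3, mem_sup_zpowers (hn hk) (mem_sup_left (h.sq k hk)),
    mem_sup_zpowers (h.norm hg) (h.sq g hg), mem_sup_zpowers (h.norm hg) (h.sq g hg)] at hx
  tauto

/-- A bijective crossed homomorphism from a four-group comes from a trivial action. -/
theorem crossed_trivial [Finite G] {Q : Type*} [Group Q] (π : G →* Q) {M D : Subgroup G} {a : G}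
    (h : Sec M D) (h4 : D.relIndex M ≤ 4) (hker : ∀ g ∈ M, π ⁅g, a⁆ = 1 ↔ g ∈ D)
    (hsq : ∀ g ∈ M, π ⁅g, a⁆ * π ⁅g, a⁆ = 1)
    (hcl : ∀ g ∈ M, ∀ k ∈ M, ∃ x ∈ M, π g * π ⁅k, a⁆ * (π g)⁻¹ = π ⁅x, a⁆)
    {g k : G} (hg : g ∈ M) (hk : k ∈ M) : π g * π ⁅k, a⁆ * (π g)⁻¹ = π ⁅k, a⁆ := by
  have hm : ∀ x y : G, π ⁅x * y, a⁆ = π x * π ⁅y, a⁆ * (π x)⁻¹ * π ⁅x, a⁆ := fun x y => by
    simp only [← map_inv, ← map_mul, commutatorElement_def]; congr 1; group
  have hr : ∀ x ∈ M, ∀ y ∈ M, x * y⁻¹ ∈ D → π ⁅x, a⁆ = π ⁅y, a⁆ := fun x hx y hy hd => by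
    have h1 : y⁻¹ * x ∈ D := by
      have := h.conj_mem (M.inv_mem hy) hd
      simpa [mul_assoc] using this
    have h2 := hm y (y⁻¹ * x)
    rw [(hker _ (h.le h1)).2 h1] at h2
    simpa using h2
  have hself : π g * π ⁅g, a⁆ * (π g)⁻¹ = π ⁅g, a⁆ := by
    have h1 := hm g g
    rw [(hker _ (M.mul_mem hg hg)).2 (h.sq g hg)] at h1
    rw [eq_inv_of_mul_eq_one_left h1.symm, inv_eq_of_mul_self (hsq g hg)]
  by_cases hgD : g ∈ D
  · have h1 := hm g k
    rw [(hker g hg).2 hgD, mul_one] at h1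
    rw [← h1]
    exact hr _ (M.mul_mem hg hk) _ hk (by simpa using hgD)
  by_cases hkD : k ∈ D
  · rw [(hker k hk).2 hkD]; simp
  by_cases hgk : k * g⁻¹ ∈ D
  · rw [hr k hk g hg hgk, hself]
  obtain ⟨x, hx, e⟩ := hcl g hg k hk
  rcases h.four_cases h4 hg hk hgD hkD hgk hx with h1 | h1 | h1 | h1
  · rw [(hker x hx).2 h1] at e
    exact (hkD ((hker k hk).1 (by simpa using e))).elim
  · rw [hr x hx g hg h1] at e
    have e2 : π ⁅k, a⁆ = π ⁅g, a⁆ := by
      rw [← hself] at e; simpa using e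
    have h2 := hm g (g⁻¹ * k)
    rw [mul_inv_cancel_left, e2, eq_comm, mul_eq_right] at h2
    have h3 := (hker _ (M.mul_mem (M.inv_mem hg) hk)).1 (by simpa using h2)
    exact (hgk (by simpa [mul_assoc] using h.conj_mem hg h3)).elim
  · rw [e, hr x hx k hk h1]
  · rw [hr x hx (g * k) (M.mul_mem hg hk) (by simpa [mul_assoc] using h1), hm, eq_comm,
      mul_eq_left] at e
    exact (hgD ((hker g hg).1 e)).elim

theorem index_centralizer_four_le [Finite G] (hG : IsPGroup 2 G) {W : Subgroup G} [W.Normal]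
    (hW : Nat.card W = 4) : (centralizer (W : Set G)).index ≤ 2 := by
  have := H9.relIndex_centralizer_dvd_of_card_sq (p := 2) (P := ⊤) (N := W) (hG.to_subgroup _)
    le_top le_normalizer_of_normal hW
  rw [relIndex_top_right] at this
  exact Nat.le_of_dvd two_pos this

theorem card_le_index_mul [Finite G] (H P : Subgroup G) :
    Nat.card H ≤ P.index * Nat.card (P ⊓ H : Subgroup G) := by
  rw [H9.card_eq_relIndex_mul' (K := P) (L := H)]
  refine Nat.mul_le_mul_right _ ?_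
  rw [← relIndex_top_right]
  exact relIndex_le_of_le_right le_top H9.relIndex_pos.ne'

theorem card_centralizer_conj (g a : G) : Nat.card (centralizer ({g * a * g⁻¹} : Set G)) =
    Nat.card (centralizer ({a} : Set G)) := by
  rw [← cj_centralizer_singleton, card_cj]

theorem Sec.relIndex_le_card_centralizer' [Finite G] {K L : Subgroup G} (h : Sec K L) {g : G}
    (hg : g ∈ K) : L.relIndex K ≤ Nat.card (centralizer ({g} : Set G)) :=
  (h.relIndex_le_card_centralizer hg).trans (H9.card_le_of_le' inf_le_right)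

theorem sq_eq_one_of_descent [Finite G] (hG : IsPGroup 2 G) {ι : Type*} {M : Set ι} (q : ι → G)
    (h : ∀ g ∈ M, ∃ k ∈ M, q g = (q k * q k)⁻¹) : ∀ g ∈ M, q g = 1 := by
  obtain ⟨n, hn⟩ := hG.exists_card_eq
  have key : ∀ m, (∀ g ∈ M, q g ^ 2 ^ m = 1) → ∀ g ∈ M, q g = 1 := by
    intro m
    induction m with
    | zero => simp
    | succ m ih =>
      intro hm
      refine ih fun g hg => ?_
      obtain ⟨k, hk, e⟩ := h g hg
      rw [e, inv_pow, ← pow_two, ← pow_mul, ← pow_succ', hm k hk, inv_one]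
  exact key n fun g _ => by rw [← hn]; exact pow_card_eq_one'

theorem sr_caseA [Finite G] (hG : IsPGroup 2 G) {W : Subgroup G} [W.Normal] {a : G}
    (h : LP (centralizer (W : Set G)) W a) : SR (⊤ : Subgroup G) 16 := by
  intro K L _ hs
  by_contra hlt
  have h32 : 2 ^ (4 + 1) ≤ L.relIndex K :=
    two_pow_ge_of_gt (relIndex_two_pow hG L K) (not_le.1 hlt)
  set P := centralizer (W : Set G) with hP
  set A : Subgroup G := ⁅P, P⁆ with hA
  have hAP : A ≤ P := P.commutator_le_self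
  have hPi : P.index ≤ 2 := index_centralizer_four_le hG h.W_card
  have hai := inv_eq_of_mul_self h.sq
  -- no element of the coset of `a` lies in `K`
  have hCa : Nat.card (centralizer ({a} : Set G)) ≤ 16 := by
    have := card_le_index_mul (centralizer ({a} : Set G)) P
    rw [h.card_inf] at this; omega
  have haK : ∀ y ∈ A, y * a ∉ K := fun y hy hK => by
    obtain ⟨g, -, e⟩ := h.exists_conj hy
    have := hs.relIndex_le_card_centralizer' hK
    rw [← e, card_centralizer_conj] at this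
    omega
  set f := QuotientGroup.mk' A with hf
  have hsp := relIndex_split_normal hs.le A
  rw [← hf] at hsp
  have hi0 : (L ⊓ A).relIndex (K ⊓ A) ≤ 4 := h.sr_comm _ _ inf_le_right (hs.inf A)
  have hAi : A.index = 8 * P.index := by
    rw [← relIndex_mul_index hAP, h.relIndex_eq]
  have hQ : Nat.card (G ⧸ A) ≤ 16 := by
    change A.index ≤ 16; omega
  have hi1 : (L.map f).relIndex (K.map f) ≤ Nat.card (K.map f) := relIndex_le_card _ _
  have hnot : ¬ A ≤ L := fun hAL => by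
    rw [inf_eq_right.2 hAL, inf_eq_right.2 (hAL.trans hs.le), relIndex_self] at hsp
    have := card_le_card_group (K.map f)
    omega
  set X := K ⊔ A with hX
  have hXc : X = (K.map f).comap f := by rw [comap_map_eq, hf, QuotientGroup.ker_mk']
  have hXi : X.index * Nat.card (K.map f) = A.index := by
    rw [hXc, index_comap_of_surjective _ (QuotientGroup.mk'_surjective _), index_mul_card]; rfl
  have hX1 : X.index ≠ 1 := fun h1 => hnot <| hs.le_of_sup (hG.to_subgroup ⊤) le_top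
    ((commutator_mono le_top le_top).trans (H9.commutator_le_Phi ⊤)) (index_eq_one.1 h1).ge
  have hX0 : X.index ≠ 0 := index_ne_zero_of_finite
  have h8 : 8 ≤ (L.map f).relIndex (K.map f) := by
    by_contra h1
    have : (L ⊓ A).relIndex (K ⊓ A) * (L.map f).relIndex (K.map f) ≤ 4 * 7 :=
      Nat.mul_le_mul hi0 (by omega)
    omega
  have hK8 : Nat.card (K.map f) ≤ 8 := by
    have : 2 * Nat.card (K.map f) ≤ X.index * Nat.card (K.map f) :=
      Nat.mul_le_mul_right _ (by omega)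
    omega
  have hX2 : X.index = 2 := by
    have : X.index * 8 ≤ X.index * Nat.card (K.map f) := Nat.mul_le_mul_left _ (by omega)
    omega
  have hP2 : P.index = 2 := by
    have : Nat.card (K.map f) = 8 := by omega
    rw [this, hX2] at hXi; omega
  have hLA : L ≤ A := by
    have := ((hs.map f).eq_of_card_le le_rfl (by omega)).2
    rwa [Subgroup.map_eq_bot_iff, hf, QuotientGroup.ker_mk'] at this
  have h4 : 4 ≤ (L ⊓ A).relIndex (K ⊓ A) := by
    by_contra h1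
    have : (L ⊓ A).relIndex (K ⊓ A) * (L.map f).relIndex (K.map f) ≤ 3 * 8 :=
      Nat.mul_le_mul (by omega) (by omega)
    omega
  have hXm : ∀ x ∈ X, ∃ k ∈ K, ∃ y ∈ A, x = k * y := fun x hx =>
    H2.exists_mul_of_mem_sup le_normalizer_of_normal hx
  have haX : a ∉ X := fun hx => by
    obtain ⟨y, hy, k, hk, e⟩ := H2.exists_mul_of_mem_sup' (H := K) (N := A) (x := a)
      le_normalizer_of_normal (by rw [sup_comm]; exact hx)
    exact haK y⁻¹ (A.inv_mem hy) (by rw [e]; simpa using hk)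
  obtain ⟨s, hsK, hsP⟩ : ∃ s ∈ K, s ∉ P := by
    by_contra h1
    push Not at h1
    have h2 : X ≤ P := sup_le h1 hAP
    have h3 := relIndex_mul_index h2
    rw [hX2, hP2] at h3
    exact haX (relIndex_eq_one.1 (by omega) h.mem)
  have hAc : ∀ x ∈ A, ∀ y ∈ A, x * y = y * x := fun _ hx _ hy => h.comm hx hy
  have hsq := (hs.inf A).relIndex_le_of_sq (U := W ⊓ A) fun x hx y hy e =>
    ⟨sq_fibre_of_comm hAc (fun _ hx => h.omega hx) x hx.2 y hy.2 e,
      A.mul_mem (A.inv_mem hx.2) hy.2⟩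
  have hWA : W ≤ A := inf_eq_left.1
    (eq_of_le_of_card_ge inf_le_left (by rw [h.W_card]; exact h4.trans hsq.1))
  set Φ := H9.Phi 2 A with hΦ
  haveI : Φ.Normal := Phi_normal A
  have hLΦ : L ≤ Φ := fun y hy => by
    obtain ⟨x, hx, e⟩ := hsq.2 (by rw [inf_eq_left.2 hWA, h.W_card]; exact h4) y ⟨hy, hLA hy⟩
    exact (mem_Phi_iff_of_comm hAc).2 ⟨x, hx.2, e⟩
  haveI : X.Normal := normal_of_index_eq_two hX2
  set M := X ⊓ P with hM
  have hAM : A ≤ M := le_inf le_sup_right hAP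
  have hPM : ∀ g ∈ P, g ∈ M ∨ g * a ∈ M := fun g hg => by
    by_cases h1 : g ∈ X
    · exact Or.inl ⟨h1, hg⟩
    · exact Or.inr ⟨(mul_mem_iff_of_index_two hX2).2 (by tauto), P.mul_mem hg h.mem⟩
  have hsurj : ∀ y ∈ A, ∃ g ∈ M, ⁅g, a⁆ = y := fun y hy => by
    obtain ⟨g, hg, rfl⟩ := h.exists_comm hy
    rcases hPM g hg with h1 | h1
    · exact ⟨g, h1, rfl⟩
    · exact ⟨g * a, h1, by simp only [commutatorElement_def]; group⟩
  have huA : ∀ g ∈ M, ⁅g, a⁆ ∈ A := fun g hg => commutator_mem_commutator hg.2 h.mem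
  have hub : ∀ b ∈ A, ⁅b, a⁆ = b * b := fun b hb => by
    have := h.inverts (A.inv_mem hb)
    rw [commutatorElement_def, mul_assoc, mul_assoc, ← mul_assoc a, this, inv_inv]
  have hinj : ∀ g ∈ M, ⁅g, a⁆ ∈ Φ → g ∈ A := fun g hg h1 => by
    obtain ⟨b, hb, e⟩ := (mem_Phi_iff_of_comm hAc).1 h1
    rw [← hub b hb, commutatorElement_def, commutatorElement_def, mul_left_inj] at e
    have h2 : b⁻¹ * g * a = a * (b⁻¹ * g) := by
      calc b⁻¹ * g * a = b⁻¹ * (g * a * g⁻¹) * g := by group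
        _ = a * (b⁻¹ * g) := by rw [← e]; group
    have h3 : b⁻¹ * g ∈ M := M.mul_mem (M.inv_mem (hAM hb)) hg
    rcases h.cen _ h3.2 h2 with h5 | h5
    · exact (A.mul_mem_cancel_left (A.inv_mem hb)).1 (hWA h5)
    · exact (haX ((X.mul_mem_cancel_left h3.1).1 (hAM (hWA h5)).1)).elim
  have hXA : Sec X A := by
    refine ⟨le_sup_right, le_normalizer_of_normal, fun x hx => ?_⟩
    obtain ⟨k, hk, y, hy, rfl⟩ := hXm x hx
    have e : k * y * (k * y) = k * k * (k⁻¹ * y * k⁻¹⁻¹ * y) := by group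
    rw [e]
    exact A.mul_mem (hLA (hs.sq k hk)) (A.mul_mem (Normal.conj_mem inferInstance _ hy _) hy)
  have hMA : Sec M A := ⟨hAM, le_normalizer_of_normal, fun x hx => hXA.sq x hx.1⟩
  have hMA4 : A.relIndex M ≤ 4 := by
    have h1 := relIndex_mul_relIndex _ _ _ hAM (inf_le_right : M ≤ P)
    rw [h.relIndex_eq, hM, inf_relIndex_right] at h1
    have h2 : X.relIndex P ≠ 1 := fun h2 => haX (relIndex_eq_one.1 h2 h.mem)
    have h3 : 0 < X.relIndex P := H9.relIndex_pos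
    have : A.relIndex (X ⊓ P) * 2 ≤ A.relIndex (X ⊓ P) * X.relIndex P :=
      Nat.mul_le_mul_left _ (by omega)
    rw [hM]; omega
  set π := QuotientGroup.mk' Φ with hπ
  have hπ1 : ∀ x, π x = 1 ↔ x ∈ Φ := fun x => QuotientGroup.eq_one_iff x
  have hπsq : ∀ b ∈ A, π b * π b = 1 := fun b hb => by
    rw [← map_mul, hπ1]; exact (mem_Phi_iff_of_comm hAc).2 ⟨b, hb, rfl⟩
  have hMtriv : ∀ g ∈ M, ∀ y ∈ A, Commute (π g) (π y) := fun g hg y hy => by
    obtain ⟨k, hk, rfl⟩ := hsurj y hy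
    refine commute_iff_conj_eq.2 (crossed_trivial π hMA hMA4 (fun g hg => ?_)
      (fun g hg => hπsq _ (huA g hg)) (fun g hg k hk => ?_) hg hk)
    · refine ⟨fun h1 => hinj g hg ((hπ1 _).1 h1), fun h1 => ?_⟩
      rw [hub g h1, map_mul, hπsq g h1]
    · obtain ⟨x, hx, e⟩ := hsurj _ (Normal.conj_mem inferInstance _ (huA k hk) g)
      exact ⟨x, hx, by rw [e, map_mul, map_mul, map_inv]⟩
  have hMsq : ∀ x ∈ M, x * x ∈ Φ := fun x hx => by
    obtain ⟨k, hk, y, hy, rfl⟩ := hXm x hx.1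
    have hkM : k ∈ M := (M.mul_mem_cancel_right (hAM hy)).1 hx
    rw [← hπ1, map_mul, map_mul, (hMtriv k hkM y hy).symm.mul_mul_mul_comm, hπsq y hy, mul_one,
      ← map_mul, hπ1]
    exact hLΦ (hs.sq k hk)
  -- an element of `X - P` centralizing `a`
  obtain ⟨s0, hs0X, hs0P, hs0a⟩ : ∃ s0 ∈ X, s0 ∉ P ∧ s0 * a * s0⁻¹ = a := by
    have h1 : ⁅s, a⁆ ∈ M := by
      refine ⟨?_, ?_⟩
      · rw [commutatorElement_def, mul_assoc, mul_assoc, ← mul_assoc a]
        exact X.mul_mem (mem_sup_left hsK)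
          (Normal.conj_mem inferInstance _ (X.inv_mem (mem_sup_left hsK)) _)
      · exact P.mul_mem (Normal.conj_mem inferInstance _ h.mem _) (P.inv_mem h.mem)
    have h2 : ⁅⁅s, a⁆, a⁆ = ⁅s, a⁆ * ⁅s, a⁆ := by
      simp only [commutatorElement_def, mul_inv_rev, inv_inv, hai]
      calc s * a * s⁻¹ * a * a * (a * (s * (a * s⁻¹))) * a
          = s * a * s⁻¹ * (a * a) * (a * (s * (a * s⁻¹))) * a := by group
        _ = _ := by rw [h.sq]; group
    have h3 := hinj _ h1 (h2 ▸ hMsq _ h1)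
    obtain ⟨g, hg, e⟩ := hsurj _ h3
    refine ⟨g⁻¹ * s, X.mul_mem (X.inv_mem hg.1) (mem_sup_left hsK),
      fun h5 => hsP ((P.mul_mem_cancel_left (P.inv_mem hg.2)).1 h5), ?_⟩
    rw [commutatorElement_def, commutatorElement_def, mul_left_inj] at e
    calc g⁻¹ * s * a * (g⁻¹ * s)⁻¹ = g⁻¹ * (s * a * s⁻¹) * g := by group
      _ = a := by rw [← e]; group
  have hqA : ∀ g ∈ M, ⁅s0, g⁆ ∈ A := fun g hg => hXA.comm_mem hs0X hg.1
  have hs0u : ∀ g ∈ M, s0 * ⁅g, a⁆ * s0⁻¹ = ⁅g, a⁆ * (⁅s0, g⁆ * ⁅s0, g⁆) := fun g hg => by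
    have e1 : s0 * ⁅g, a⁆ * s0⁻¹ = ⁅⁅s0, g⁆ * g, a⁆ := by
      conv_rhs => rw [← hs0a]
      simp only [commutatorElement_def]; group
    have e2 : ⁅⁅s0, g⁆ * g, a⁆ = ⁅s0, g⁆ * ⁅g, a⁆ * ⁅s0, g⁆⁻¹ * ⁅⁅s0, g⁆, a⁆ := by
      generalize ⁅s0, g⁆ = q
      simp only [commutatorElement_def]; group
    rw [e1, e2, hub _ (hqA g hg), hAc _ (hqA g hg) _ (huA g hg), mul_inv_cancel_right]
  have hXtriv : ∀ x ∈ X, ∀ y ∈ A, Commute (π x) (π y) := fun x hx y hy => by
    have h0 : Commute (π s0) (π y) := by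
      obtain ⟨g, hg, rfl⟩ := hsurj y hy
      rw [commute_iff_conj_eq, ← map_inv, ← map_mul, ← map_mul, hs0u g hg, map_mul, map_mul,
        hπsq _ (hqA g hg), mul_one]
    by_cases hxP : x ∈ P
    · exact hMtriv x ⟨hx, hxP⟩ y hy
    · have h1 : x * s0⁻¹ ∈ M := ⟨X.mul_mem hx (X.inv_mem hs0X),
        (mul_mem_iff_of_index_two hP2).2 (by rw [inv_mem_iff]; tauto)⟩
      have := (hMtriv _ h1 y hy).mul_left h0
      rwa [← map_mul, inv_mul_cancel_right] at this
  have hqΦ : ∀ g ∈ M, ⁅s0, g⁆ ∈ Φ := fun g hg => by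
    obtain ⟨k, hk, y, hy, rfl⟩ := hXm _ hs0X
    obtain ⟨k', hk', y', hy', rfl⟩ := hXm _ hg.1
    rw [← hπ1, map_commutatorElement, commutatorElement_eq_one_iff_commute, map_mul, map_mul]
    have c1 : Commute (π k) (π k') := by
      rw [← commutatorElement_eq_one_iff_commute, ← map_commutatorElement, hπ1]
      exact hLΦ (hs.comm_mem hk hk')
    exact (c1.mul_right (hXtriv k (mem_sup_left hk) y' hy')).mul_left
      ((hXtriv k' (mem_sup_left hk') y hy).symm.mul_right (hXtriv y (mem_sup_right hy) y' hy'))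
  have hs0W : s0 * s0 ∈ W := by
    have h1 := hXA.sq _ hs0X
    refine h.omega h1 ?_
    have h2 := h.inverts h1
    have h3 : Commute s0 a := commute_iff_conj_eq.2 hs0a
    rw [← (h3.mul_left h3).eq, mul_inv_cancel_right] at h2
    exact mul_eq_one_iff_eq_inv.2 h2
  have hqinv : ∀ g ∈ M, s0 * ⁅s0, g⁆ * s0⁻¹ = ⁅s0, g⁆⁻¹ := fun g hg => by
    have h1 := h.cent _ hs0W g hg.2
    rw [commutatorElement_inv, commutatorElement_def, commutatorElement_def]
    calc s0 * (s0 * g * s0⁻¹ * g⁻¹) * s0⁻¹ = (s0 * s0 * g) * s0⁻¹ * g⁻¹ * s0⁻¹ := by group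
      _ = _ := by rw [← h1]; group
  have hq1 := sq_eq_one_of_descent hG (M := (M : Set G)) (fun g => ⁅s0, g⁆ * ⁅s0, g⁆)
    fun g hg => by
      obtain ⟨b, hb, e⟩ := (mem_Phi_iff_of_comm hAc).1 (hqΦ g hg)
      obtain ⟨k, hk, rfl⟩ := hsurj b hb
      refine ⟨k, hk, ?_⟩
      have h1 := hqinv g hg
      have h2 := hs0u k hk
      have h3 : Commute (⁅s0, k⁆ * ⁅s0, k⁆) ⁅k, a⁆ :=
        hAc _ (A.mul_mem (hqA k hk) (hqA k hk)) _ hb
      have h5 : s0 * ⁅s0, g⁆ * s0⁻¹ = ⁅s0, g⁆ * (⁅s0, k⁆ * ⁅s0, k⁆ * (⁅s0, k⁆ * ⁅s0, k⁆)) := by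
        rw [← e, ← h3.mul_mul_mul_comm, ← h2]; group
      rw [h1] at h5
      rw [eq_inv_iff_mul_eq_one, mul_assoc, ← h5, mul_inv_cancel]
  refine hs0P (mem_centralizer_iff.2 fun w hw => ?_)
  obtain ⟨g, hg, rfl⟩ := hsurj w (hWA hw)
  have h1 := hs0u g hg
  rw [show ⁅s0, g⁆ * ⁅s0, g⁆ = 1 from hq1 g hg, mul_one] at h1
  exact (commute_iff_conj_eq.2 h1).symm.eq

end Cfsg.Agent.H6
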