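import Cfsg.Agent.Lib.H6.SecA

/-! Harada's four generator theorem: Alperin's lemma and the reduction to the main
configuration (helper6). -/

set_option autoImplicit false
set_option linter.style.haveILetI false
open Cfsg Subgroup
open scoped Pointwise commutatorElement

namespace Cfsg.Agent.H6

variable {G : Type*} [Group G]

/-- `B` is a normal abelian subgroup of exponent at most four containing all elements of order at
most four of its centralizer. -/
structure Alp (B : Subgroup G) : Prop where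
  normal : B.Normal
  comm : ∀ a ∈ B, ∀ b ∈ B, a * b = b * a
  four : ∀ b ∈ B, b * b * (b * b) = 1
  mem : ∀ x ∈ centralizer (B : Set G), x * x * (x * x) = 1 → x ∈ B

theorem exists_alp [Finite G] (hG : IsPGroup 2 G) : ∃ B : Subgroup G, Alp B := by
  obtain ⟨B, ⟨hBn, hBc, hB4⟩, hmax⟩ := Set.Finite.exists_maximal
    (s := {B : Subgroup G | B.Normal ∧ (∀ a ∈ B, ∀ b ∈ B, a * b = b * a) ∧
      ∀ b ∈ B, b * b * (b * b) = 1}) (Set.toFinite _) ⟨⊥, inferInstance, by simp, by simp⟩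
  refine ⟨B, hBn, hBc, hB4, fun x0 hx0 h4 => ?_⟩
  by_contra hx0B
  set N := centralizer (B : Set G) with hN
  have hNc : ∀ x ∈ N, ∀ b ∈ B, Commute x b := fun x hx b hb => (mem_centralizer_iff.1 hx b hb).symm
  have hne : {x : G | x ∈ N ∧ x ∉ B ∧ x * x ∈ B ∧ x * x * (x * x) = 1}.Nonempty := by
    by_cases h2 : x0 * x0 ∈ B
    · exact ⟨x0, hx0, hx0B, h2, h4⟩
    · exact ⟨x0 * x0, N.mul_mem hx0 hx0, h2, by rw [h4]; exact B.one_mem, by rw [h4, mul_one]⟩
  obtain ⟨x, ⟨hxN, hxB, hx2, hx4⟩, hxm⟩ := Set.Finite.exists_maximalFor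
    (fun x => H9.cmod B x) _ (Set.toFinite _) hne
  have hmem : ∀ y g : G, g ∈ H9.cmod B y ↔ ⁅g, y⁆ ∈ B := fun y g =>
    ⟨fun h => h.2, fun h => ⟨le_normalizer_of_normal (K := ⊤) (mem_top g), h⟩⟩
  by_cases hC : H9.cmod B x = ⊤
  · have hxn : x ∈ normalizer (B : Set G) := le_normalizer_of_normal (K := ⊤) (mem_top x)
    have hm : ∀ y, y ∈ B ⊔ zpowers x ↔ y ∈ B ∨ y * x⁻¹ ∈ B := fun y => mem_sup_zpowers hxn hx2
    have hcomm : ∀ a ∈ B ⊔ zpowers x, ∀ b ∈ B ⊔ zpowers x, a * b = b * a := fun a ha b hb =>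
      H9.mul_comm_of_le_sup_zpowers (K := B) (H := B ⊔ zpowers x) (x := x)
        (mem_sup_right (mem_zpowers x)) (fun k hk y hy => by
          rcases (hm y).1 hy with h1 | h1
          · exact hBc k hk y h1
          · have := (show Commute k (y * x⁻¹) from hBc k hk _ h1).mul_right (hNc x hxN k hk).symm
            simpa using this.eq) le_rfl ha hb
    have := hmax (y := B ⊔ zpowers x) ⟨⟨fun y hy g => ?_⟩, hcomm, fun y hy => ?_⟩ le_sup_left
    · exact hxB (this (mem_sup_right (mem_zpowers x)))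
    · rcases (hm y).1 hy with h1 | h1
      · exact mem_sup_left (hBn.conj_mem y h1 g)
      · refine (hm _).2 (Or.inr ?_)
        have h2 := B.mul_mem (hBn.conj_mem _ h1 g) ((hmem x g).1 (hC ▸ mem_top g))
        convert h2 using 1
        rw [commutatorElement_def]; group
    · rcases (hm y).1 hy with h1 | h1
      · exact hB4 y h1
      · obtain ⟨b, hb, rfl⟩ : ∃ b ∈ B, y = b * x := ⟨_, h1, by group⟩
        have c := hNc x hxN b hb
        rw [c.mul_mul_mul_comm, ((c.mul_left c).mul_right (c.mul_left c)).mul_mul_mul_comm,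
          hB4 b hb, hx4, mul_one]
  obtain ⟨g, -, hgC, hgn, hg2⟩ := exists_mem_normalizer_not_mem_pow (p := 2) (hG.to_subgroup ⊤)
    (lt_top_iff_ne_top.2 hC)
  set y := g * x * g⁻¹ with hy
  have hyN : y ∈ N := Normal.conj_mem inferInstance x hxN g
  have hy2 : y * y ∈ B := by
    have := hBn.conj_mem _ hx2 g
    convert this using 1; rw [hy]; group
  have hy4 : y * y * (y * y) = 1 := by
    calc y * y * (y * y) = g * (x * x * (x * x)) * g⁻¹ := by rw [hy]; group
      _ = 1 := by rw [hx4]; group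
  have hCy : ∀ c ∈ H9.cmod B x, ⁅c, y⁆ ∈ B := fun c hc => by
    have := hBn.conj_mem _ ((hmem x _).1 (conj_mem_of_mem_normalizer' hgn hc)) g
    convert this using 1
    simp only [hy, commutatorElement_def]; group
  have hxC : x ∈ H9.cmod B x := (hmem x x).2 (by simp)
  have hc : ⁅y, x⁆ ∈ B := H9.commutator_mem_comm (hCy x hxC)
  have hcx : Commute x ⁅y, x⁆ := hNc x hxN _ hc
  have hcy : Commute y ⁅y, x⁆ := hNc y hyN _ hc
  have hsq : x * y * (x * y) = x * x * (y * y) * ⁅y, x⁆ := by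
    have := H9.mul_pow_of_commute_commutator hcx hcy 2
    simpa [pow_two] using this
  have hc2 : ⁅y, x⁆ * ⁅y, x⁆ = 1 := by
    rw [← pow_two, ← H9.commutator_pow_left_of_commute hcy 2, pow_two,
      commutatorElement_eq_one_iff_commute]
    exact (hNc x hxN _ hy2).symm
  have hgood : x * y ∈ {x : G | x ∈ N ∧ x ∉ B ∧ x * x ∈ B ∧ x * x * (x * x) = 1} := by
    refine ⟨N.mul_mem hxN hyN, fun h => hgC ((hmem x g).2 ?_), ?_, ?_⟩
    · have := B.mul_mem (hBn.conj_mem _ h x⁻¹) (B.inv_mem hx2)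
      convert this using 1
      simp only [hy, commutatorElement_def]; group
    · rw [hsq]; exact B.mul_mem (B.mul_mem hx2 hy2) hc
    · rw [hsq, (show Commute ⁅y, x⁆ (x * x * (y * y)) from
        hBc _ hc _ (B.mul_mem hx2 hy2)).mul_mul_mul_comm, hc2, mul_one,
        (show Commute (y * y) (x * x) from hBc _ hy2 _ hx2).mul_mul_mul_comm, hx4, hy4, mul_one]
  have hle : H9.cmod B x ≤ H9.cmod B (x * y) := fun c hc => (hmem _ _).2 (by
    have := B.mul_mem ((hmem x c).1 hc) (hBn.conj_mem _ (hCy c hc) x)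
    convert this using 1
    simp only [commutatorElement_def]; group)
  refine hgC (hxm hgood hle ((hmem _ _).2 ?_))
  have h1 := B.mul_mem (hBn.conj_mem _ ((hmem x _).1 hg2) y) hc
  convert h1 using 1
  simp only [hy, commutatorElement_def, pow_two]; group

theorem exists_order_four [Finite G] (hG : IsPGroup 2 G) {x : G} (hx : x * x ≠ 1) :
    ∃ y ∈ zpowers x, y * y ≠ 1 ∧ y * y * (y * y) = 1 := by
  obtain ⟨k, hk⟩ := hG (x * x)
  obtain ⟨j, h1, h2⟩ := H9.exists_pow_not_mem_pow_succ_mem (p := 2) (K := ⊥) (g := x * x)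
    (by simpa using hx) (k := k) (by simpa using hk)
  rw [mem_bot, (Commute.refl x).mul_pow] at h1 h2
  exact ⟨x ^ 2 ^ j, pow_mem (mem_zpowers x) _, h1, by rw [← pow_two]; exact h2⟩

namespace Alp

variable {B : Subgroup G}

theorem le (h : Alp B) : B ≤ centralizer (B : Set G) :=
  fun b hb => mem_centralizer_iff.2 fun c hc => h.comm c hc b hb

theorem commute {x b : G} (hx : x ∈ centralizer (B : Set G)) (hb : b ∈ B) : Commute x b :=
  (mem_centralizer_iff.1 hx b hb).symm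

theorem mem_of_sq (h : Alp B) {x : G} (hx : x ∈ centralizer (B : Set G)) (h2 : x * x = 1) :
    x ∈ B := h.mem x hx (by rw [h2, mul_one])

theorem sq_fibre [Finite G] (hG : IsPGroup 2 G) (h : Alp B) {x y : G}
    (hx : x ∈ centralizer (B : Set G)) (hy : y ∈ centralizer (B : Set G)) (e : x * x = y * y) :
    x⁻¹ * y * (x⁻¹ * y) = 1 := by
  by_contra hne
  obtain ⟨v, hv, h1, h2⟩ := exists_order_four hG hne
  have hi : x * (x⁻¹ * y) * x⁻¹ = (x⁻¹ * y)⁻¹ := by
    calc x * (x⁻¹ * y) * x⁻¹ = y⁻¹ * (y * y) * x⁻¹ := by group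
      _ = _ := by rw [← e]; group
  have hvN : v ∈ centralizer (B : Set G) :=
    zpowers_le_of_mem (mul_mem (inv_mem hx) hy) hv
  obtain ⟨i, rfl⟩ := mem_zpowers_iff.1 hv
  have h3 := conj_zpow_of_inverts hi i
  rw [(commute hx (h.mem _ hvN h2)).eq, mul_inv_cancel_right] at h3
  exact h1 (mul_eq_one_iff_eq_inv.2 h3)

theorem sq_fibre' [Finite G] (hG : IsPGroup 2 G) (h : Alp B) {U : Subgroup G}
    (hU : ∀ b ∈ B, b * b = 1 → b ∈ U) : ∀ x ∈ centralizer (B : Set G),
      ∀ y ∈ centralizer (B : Set G), x * x = y * y → x⁻¹ * y ∈ U := fun _ hx _ hy e =>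
  hU _ (h.mem_of_sq (mul_mem (inv_mem hx) hy) (h.sq_fibre hG hx hy e)) (h.sq_fibre hG hx hy e)

/-- A central involution and a normal four-group inside `B`. -/
theorem exists_four [Finite G] (hG : IsPGroup 2 G) (h : Alp B) {E : Subgroup G}
    (hE : ∀ e ∈ E, e * e = 1) (h8 : Nat.card E = 8) :
    ∃ z ∈ B, ∃ w ∈ B, orderOf z = 2 ∧ w * w = 1 ∧ (∀ g, g * z = z * g) ∧ w ∉ zpowers z ∧
      ∀ g : G, ⁅g, w⁆ ∈ zpowers z := by
  haveI := h.normal
  let V : Subgroup G :=
    { carrier := {b | b ∈ B ∧ b * b = 1}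
      one_mem' := ⟨B.one_mem, mul_one 1⟩
      mul_mem' := fun {a b} ha hb => ⟨B.mul_mem ha.1 hb.1, by
        rw [(show Commute b a from h.comm _ hb.1 _ ha.1).mul_mul_mul_comm, ha.2, hb.2, mul_one]⟩
      inv_mem' := fun {a} ha => ⟨B.inv_mem ha.1, by rw [← mul_inv_rev, ha.2, inv_one]⟩ }
  have hVn : (⊤ : Subgroup G) ≤ normalizer (V : Set G) := fun g _ =>
    mem_normalizer_of_conj_mem fun x hx => ⟨h.normal.conj_mem _ hx.1 g, conj_mul_self hx.2 g⟩
  have hV4 : 2 < Nat.card V := by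
    by_contra hle
    have h1 : Nat.card B ≤ Nat.card V ^ 2 := card_le_pow_of_omega h.comm
      (fun a ha h2 => ⟨ha, h2⟩) fun a ha => by
        rw [show 2 ^ 2 = 2 * 2 from rfl, pow_mul, pow_two, pow_two, h.four a ha]
    have h2 : Nat.card B ≤ 4 := h1.trans (Nat.pow_le_pow_left (not_lt.1 hle) 2)
    have h3 : (centralizer (B : Set G)).index ≤ 2 := by
      rcases (two_pow_le_or (card_two_pow hG B) 1) with h4 | h4
      · have h5 : B ≤ center G := by
          rcases (two_pow_le_or (card_two_pow hG B) 0) with h6 | h6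
          · rw [(card_le_one_iff_eq_bot B).1 h6]; exact bot_le
          · exact H9.le_center_of_card_prime hG (le_antisymm h4 h6)
        rw [centralizer_eq_top_iff_subset.2 h5, index_top]; omega
      · exact index_centralizer_four_le hG (le_antisymm h2 h4)
    have h4 := card_le_index_mul E (centralizer (B : Set G))
    have h5 : Nat.card (centralizer (B : Set G) ⊓ E : Subgroup G) ≤ Nat.card V :=
      H9.card_le_of_le' fun x hx => ⟨h.mem_of_sq hx.1 (hE x hx.2), hE x hx.2⟩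
    have : _ ≤ 2 * 2 := Nat.mul_le_mul h3 (h5.trans (not_lt.1 hle))
    omega
  obtain ⟨z, hz, hz1, -, hzc⟩ := H9.exists_mem_centralizer_ne_one (p := 2) (N := V) (P := ⊤)
    (hG.to_subgroup _) (hG.to_subgroup _) hVn (fun h0 => by rw [h0, card_bot] at hV4; omega)
  have hzo := orderOf_eq_two hz.2 hz1
  have hlt : zpowers z < V := lt_of_le_of_ne (by simpa using hz) fun h0 => by
    rw [← h0, Nat.card_zpowers, hzo] at hV4; omega
  obtain ⟨w, hw, hwz, -, hwc⟩ := H9.exists_mem_commutator_mem_of_lt (p := 2) (P := ⊤)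
    (hG.to_subgroup _) le_top (fun g hg => mem_normalizer_zpowers (by rw [hzc g hg]; simp)) hVn hlt
  exact ⟨z, hz.1, w, hw.1, hzo, hw.2, fun g => hzc g (mem_top g), hwz, fun g => hwc g (mem_top g)⟩

end Alp

theorem sr_of_normal_four [Finite G] (hG : IsPGroup 2 G) {W E : Subgroup G} [W.Normal]
    (hW : IsKleinFour W) (hWE : W ≤ E) (hE : ∀ e ∈ E, e * e = 1) (h8 : Nat.card E = 8)
    (hC : centralizer (E : Set G) ≤ E) : SR (⊤ : Subgroup G) 16 := by
  have hW4 := (isKleinFour_iff.1 hW).1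
  obtain ⟨a, ha, haW⟩ := SetLike.not_le_iff_exists.1 (show ¬ E ≤ W from fun h => by
    have := H9.card_le_of_le' h; omega)
  have hc : ∀ x ∈ E, ∀ y ∈ E, x * y = y * x := fun _ hx _ hy => commute_of_mul_self hE hx hy
  have han : a ∈ normalizer (W : Set G) := le_normalizer_of_normal (K := ⊤) (mem_top a)
  have ha2 : a * a ∈ W := by rw [hE a ha]; exact W.one_mem
  have he : W ⊔ zpowers a = E := eq_of_le_of_card_ge (sup_le hWE (by simpa using ha))
    (by rw [card_sup_zpowers_eq han ha2 haW, hW4, h8])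
  refine sr_caseA hG (W := W) (a := a) ⟨hG.to_subgroup _, hW,
    fun w hw => mem_centralizer_iff.2 fun v hv => hc v (hWE hv) w (hWE hw),
    fun w hw g hg => (mem_centralizer_iff.1 hg w hw).symm,
    mem_centralizer_iff.2 fun v hv => hc v (hWE hv) a ha, haW, hE a ha, fun g hg h1 => ?_⟩
  have h2 : g ∈ W ⊔ zpowers a := by
    rw [he]
    refine hC (mem_centralizer_iff.2 fun e he' => ?_)
    rw [← he] at he'
    exact H9.mul_comm_of_sup_zpowers rfl (fun b hb => mem_centralizer_iff.1 hg b hb) h1.symm he'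
  rwa [mem_sup_zpowers han ha2, inv_eq_of_mul_self (hE a ha)] at h2

theorem mem_zpowers_two {z x : G} (hz : z * z = 1) : x ∈ zpowers z ↔ x = 1 ∨ x = z := by
  refine ⟨fun hx => ?_, fun h => h.elim (fun h => h ▸ one_mem _) fun h => h ▸ mem_zpowers z⟩
  by_cases h1 : z = 1
  · left; simpa [h1] using hx
  · exact or_iff_not_imp_left.2 fun h => eq_of_mem_zpowers_of_orderOf_two (orderOf_eq_two hz h1) hx h

/-- The main configuration. -/
structure C2 (W : Subgroup G) (z w a a0 h : G) : Prop where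
  normal : W.Normal
  four : IsKleinFour W
  memW : ∀ x, x ∈ W ↔ x = 1 ∨ x = z ∨ x = w ∨ x = z * w
  z1 : z ≠ 1
  zc : ∀ g, g * z = z * g
  a2 : a * a = 1
  aw : a * w * a⁻¹ = z * w
  a02 : a0 * a0 = 1
  a0W : a0 ∉ W
  a0a : a0 * a = a * a0
  a0T : a0 ∈ centralizer (W : Set G)
  hT : h ∈ centralizer (W : Set G)
  ha0 : h * a0 = a0 * h
  ha : ⁅h, a⁆ = a0
  cenE : ∀ g ∈ centralizer (W : Set G), g * a = a * g → g * a0 = a0 * g →
    g ∈ zpowers z ∨ g * a0 ∈ zpowers z
  cenP : ∀ g ∈ centralizer (W : Set G), g * a0 = a0 * g →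
    (g ∈ W ∨ g * a0 ∈ W) ∨ (g * h⁻¹ ∈ W ∨ g * h⁻¹ * a0 ∈ W)
  card : Nat.card (centralizer ({a0} : Set G)) = 32
  fuse : ∃ g, g * a0 * g⁻¹ = z * a0

theorem exists_c2 [Finite G] (hG : IsPGroup 2 G) {E : Subgroup G} (hE : ∀ e ∈ E, e * e = 1)
    (h8 : Nat.card E = 8) (hC : centralizer (E : Set G) ≤ E) {z w : G} (hz : orderOf z = 2)
    (hw : w * w = 1) (hzc : ∀ g, g * z = z * g) (hwz : w ∉ zpowers z)
    (hwc : ∀ g : G, ⁅g, w⁆ ∈ zpowers z) :
    SR (⊤ : Subgroup G) 16 ∨ ∃ a a0 h, C2 (closure {z, w}) z w a a0 h := by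
  have hz2 := mul_self_of_orderOf_two hz
  have hz1 := ne_one_of_orderOf_two hz
  have hw1 : w ≠ 1 := fun h => hwz (h ▸ one_mem _)
  have hzw : z ≠ w := fun h => hwz (h ▸ mem_zpowers z)
  set W : Subgroup G := closure {z, w} with hW
  have hW4 : IsKleinFour W := isKleinFour_closure_pair hz (orderOf_eq_two hw hw1) (hzc w).symm hzw
  have hWm : ∀ x, x ∈ W ↔ x = 1 ∨ x = z ∨ x = w ∨ x = z * w := fun x =>
    mem_closure_pair hz2 hw (hzc w).symm
  have hzW : z ∈ W := left_mem_closure_pair z w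
  have hwW : w ∈ W := right_mem_closure_pair z w
  have hconj : ∀ g, g * w * g⁻¹ = w ∨ g * w * g⁻¹ = z * w := fun g => by
    rcases (mem_zpowers_two hz2).1 (hwc g) with h | h
    · left; rw [commutatorElement_def, mul_inv_eq_one] at h; exact h
    · right; rw [commutatorElement_def, mul_inv_eq_iff_eq_mul] at h; exact h
  haveI hWn : W.Normal := normalizer_eq_top_iff.1 (top_le_iff.1 fun g _ =>
    mem_normalizer_of_cj_le (by
      rw [hW, cj_closure_pair]
      refine closure_pair_le (by rw [hzc g]; simpa using hzW) ?_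
      rcases hconj g with h | h <;> rw [h]
      exacts [hwW, W.mul_mem hzW hwW]))
  have hEc : ∀ x ∈ E, ∀ y ∈ E, x * y = y * x := fun _ hx _ hy => commute_of_mul_self hE hx hy
  have hzE : z ∈ E := hC (mem_centralizer_iff.2 fun e _ => hzc e)
  by_cases hwE : w ∈ E
  · exact Or.inl (sr_of_normal_four hG hW4 (closure_pair_le hzE hwE) hE h8 hC)
  obtain ⟨a, haE, haw⟩ : ∃ a ∈ E, a * w ≠ w * a := by
    by_contra h
    push Not at h
    exact hwE (hC (mem_centralizer_iff.2 h))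
  have haw' : a * w * a⁻¹ = z * w := (hconj a).resolve_left fun h =>
    haw (mul_inv_eq_iff_eq_mul.1 h)
  clear_value W
  obtain ⟨T, hT⟩ : ∃ T, T = centralizer (W : Set G) := ⟨_, rfl⟩
  have hTc : ∀ g, g ∈ T ↔ ∀ x ∈ W, x * g = g * x := fun g => by rw [hT]; rfl
  have hTm : ∀ g, g ∈ T ↔ g * w = w * g := fun g => ⟨fun h => ((hTc g).1 h w hwW).symm,
    fun h => (hTc g).2 fun x hx => by
      rcases (hWm x).1 hx with rfl | rfl | rfl | rfl
      · simp
      · exact (hzc g).symm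
      · exact h.symm
      · rw [mul_assoc, ← h, ← mul_assoc, ← hzc, mul_assoc]⟩
  have haT : a ∉ T := fun h => haw ((hTm a).1 h)
  have hT2 : T.index = 2 := by
    have h1 := index_centralizer_four_le hG (isKleinFour_iff.1 hW4).1
    have h2 : T.index ≠ 0 := index_ne_zero_of_finite
    have h3 : T.index ≠ 1 := fun h => haT (index_eq_one.1 h ▸ mem_top a)
    rw [← hT] at h1; omega
  have hai := inv_eq_of_mul_self (hE a haE)
  have hTa : ∀ g, g ∉ T → g * a ∈ T := fun g hg => (mul_mem_iff_of_index_two hT2).2 (by tauto)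
  let E0 := T ⊓ E
  have hE04 : Nat.card E0 = 4 := by
    have h1 : Nat.card E ≤ T.index * Nat.card E0 := card_le_index_mul E T
    have h2 : 2 * Nat.card E0 ≤ Nat.card E := H9.mul_card_le_of_lt (p := 2) (hG.to_subgroup E)
      (lt_of_le_of_ne (inf_le_right : E0 ≤ E) fun h => haT (h.ge haE).1)
    rw [hT2] at h1; omega
  have hE0f : IsKleinFour E0 := isKleinFour_iff.2 ⟨hE04, fun x hx => hE x hx.2⟩
  have hzE0 : z ∈ E0 := ⟨(hTm z).2 (hzc w).symm, hzE⟩
  obtain ⟨a0, ha0, ha01, ha0z⟩ := exists_mem_ne_of_card (U := E0) (a := 1) (b := z) (by omega)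
  have ha02 := hE a0 ha0.2
  have hE0m : ∀ x, x ∈ E0 ↔ x = 1 ∨ x = z ∨ x = a0 ∨ x = z * a0 := fun x =>
    mem_four_iff hE0f hzE0 ha0 hz1 ha01 ha0z.symm
  have ha0W : a0 ∉ W := fun h => by
    rcases (hWm a0).1 h with h | h | h | h
    exacts [ha01 h, ha0z h, hwE (h ▸ ha0.2), hwE ((E.mul_mem_cancel_left hzE).1 (h ▸ ha0.2))]
  obtain ⟨P, hP⟩ : ∃ P, P = centralizer ({a0} : Set G) := ⟨_, rfl⟩
  have hPm : ∀ g, g ∈ P ↔ g * a0 = a0 * g := fun g => by
    rw [hP]; exact mem_centralizer_singleton_iff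
  have hE0c : ∀ x ∈ E0, ∀ g ∈ P, g * x = x * g := fun x hx g hg => by
    rcases (hE0m x).1 hx with rfl | rfl | rfl | rfl
    · simp
    · exact hzc g
    · exact (hPm g).1 hg
    · rw [← mul_assoc, hzc, mul_assoc, (hPm g).1 hg, mul_assoc]
  by_cases hPt : P = ⊤
  · haveI : E0.Normal := ⟨fun x hx g => by rw [hE0c x hx g (hPt ▸ mem_top g)]; simpa using hx⟩
    exact Or.inl (sr_of_normal_four hG hE0f inf_le_right hE h8 hC)
  have hcenE : ∀ g ∈ P, g * a = a * g → g ∈ E := fun g hg h => by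
    refine hC (mem_centralizer_iff.2 fun e he => ?_)
    by_cases heT : e ∈ T
    · exact (hE0c e ⟨heT, he⟩ g hg).symm
    · have h1 : Commute g (e * a) := hE0c _ ⟨hTa e heT, E.mul_mem he haE⟩ g hg
      have := h1.mul_right (show Commute g a from h).inv_right
      rw [mul_inv_cancel_right] at this
      exact this.symm.eq
  have hLP : LP P E0 a := ⟨hG.to_subgroup _, hE0f, fun x hx => (hPm x).2 (hEc x hx.2 a0 ha0.2),
    hE0c, (hPm a).2 (hEc a haE a0 ha0.2), fun h => haT h.1, hE a haE, fun g hg h => by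
      by_cases hgT : g ∈ T
      · exact Or.inl ⟨hgT, hcenE g hg h⟩
      · exact Or.inr ⟨hTa g hgT, E.mul_mem (hcenE g hg h) haE⟩⟩
  have ha0n : a0 ∈ normalizer (W : Set G) := le_normalizer_of_normal (K := ⊤) (mem_top a0)
  have ha0s : a0 * a0 ∈ W := by rw [ha02]; exact W.one_mem
  obtain ⟨B0, hB0⟩ : ∃ B0, B0 = W ⊔ zpowers a0 := ⟨_, rfl⟩
  have hWB : W ≤ B0 := hB0 ▸ le_sup_left
  have ha0B : a0 ∈ B0 := hB0 ▸ mem_sup_right (mem_zpowers a0)
  have hB0m : ∀ x, x ∈ B0 ↔ x ∈ W ∨ x * a0 ∈ W := fun x => by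
    rw [hB0, mem_sup_zpowers ha0n ha0s, inv_eq_of_mul_self ha02]
  have hB08 : Nat.card B0 = 8 := by
    rw [hB0, card_sup_zpowers_eq ha0n ha0s ha0W, (isKleinFour_iff.1 hW4).1]
  have hWT : W ≤ T := fun x hx => (hTc x).2 fun y hy =>
    commute_of_mul_self (isKleinFour_iff.1 hW4).2 hy hx
  have hWP : W ≤ P := fun x hx => (hPm x).2 ((hTc _).1 ha0.1 x hx)
  have hB0le : B0 ≤ T ⊓ P := hB0 ▸ sup_le (le_inf hWT hWP)
    (zpowers_le_of_mem ⟨ha0.1, (hPm a0).2 rfl⟩)
  have hB0sq : ∀ b ∈ B0, b * b = 1 := fun b hb => by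
    rcases (hB0m b).1 hb with h | h
    · exact (isKleinFour_iff.1 hW4).2 b h
    · have h1 := (isKleinFour_iff.1 hW4).2 _ h
      rwa [(show Commute a0 b from ((hPm b).1 (hB0le hb).2).symm).mul_mul_mul_comm, ha02,
        mul_one] at h1
  by_cases hCB : centralizer (B0 : Set G) ≤ B0
  · exact Or.inl (sr_of_normal_four hG hW4 hWB hB0sq hB08 hCB)
  right
  have hlt : B0 < T ⊓ P := lt_of_le_of_ne hB0le fun h => hCB fun g hg => by
    rw [h]
    exact ⟨(hTc g).2 fun x hx => mem_centralizer_iff.1 hg x (hWB hx),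
      (hPm g).2 (mem_centralizer_iff.1 hg a0 ha0B).symm⟩
  have hPT : ⁅P, P⁆ ≤ T := by
    haveI := normal_of_index_eq_two hT2
    refine commutator_le.2 fun x _ y _ => ?_
    simp only [commutatorElement_def, mul_mem_iff_of_index_two hT2, inv_mem_iff]; tauto
  have hwa : ⁅w, a⁆ = z := by
    rw [commutatorElement_def, mul_assoc, mul_assoc, inv_eq_of_mul_self hw, ← mul_assoc a, haw',
      ← mul_assoc, hzc, mul_assoc, hw, mul_one]
  have hub : ∀ y ∈ ⁅P, P⁆, ⁅y, a⁆ = y * y := fun y hy => by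
    have := hLP.inverts (Subgroup.inv_mem _ hy)
    rw [commutatorElement_def, mul_assoc, mul_assoc, ← mul_assoc a, this, inv_inv]
  have hnz : ∀ y ∈ ⁅P, P⁆, y * y ≠ z := fun y hy e => by
    have hyP := P.commutator_le_self hy
    have e1 := hub y hy
    rw [e, ← hwa, commutatorElement_def, commutatorElement_def, mul_left_inj] at e1
    have h2 : w⁻¹ * y * a = a * (w⁻¹ * y) := by
      calc w⁻¹ * y * a = w⁻¹ * (y * a * y⁻¹) * y := by group
        _ = a * (w⁻¹ * y) := by rw [e1]; group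
    have h3 := hE _ (hcenE _ (P.mul_mem (P.inv_mem (hWP hwW)) hyP) h2)
    have h4 : Commute y w⁻¹ := (show Commute y w from (hTm y).1 (hPT hy)).inv_right
    rw [h4.mul_mul_mul_comm, ← mul_inv_rev, hw, inv_one, one_mul, e] at h3
    exact hz1 h3
  obtain ⟨g, -, hgP, hgn⟩ := exists_mem_normalizer_not_mem (p := 2) (hG.to_subgroup ⊤)
    (lt_top_iff_ne_top.2 hPt)
  have hgn' : g ∈ normalizer ((⁅P, P⁆ : Subgroup G) : Set G) := by
    rw [← cj_eq_self_iff] at hgn ⊢
    rw [cj, map_commutator]; exact congrArg₂ _ hgn hgn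
  have hswap : ∀ x, (x = a0 ∨ x = z * a0) → g * x * g⁻¹ ∈ E0 → x * (g * x * g⁻¹) = z := by
    intro x hx hm
    have hne : g * x * g⁻¹ ≠ x := fun h => hgP ((hPm g).2 (by
      rcases hx with rfl | rfl
      · exact mul_inv_eq_iff_eq_mul.1 h
      · rw [← mul_assoc, hzc g, mul_assoc, mul_assoc, mul_right_inj, ← mul_assoc] at h
        exact mul_inv_eq_iff_eq_mul.1 h))
    have hx1 : x ≠ 1 := by
      rcases hx with rfl | rfl
      · exact ha01
      · intro h; exact ha0z (by rw [eq_inv_of_mul_eq_one_right h, inv_eq_of_mul_self hz2])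
    have hxz : x ≠ z := by
      rcases hx with rfl | rfl
      · exact ha0z
      · intro h; exact ha01 (by simpa using h)
    rcases (hE0m _).1 hm with h | h | h | h
    · exact (hx1 (by simpa using h)).elim
    · refine (hxz ?_).elim
      calc x = g⁻¹ * (g * x * g⁻¹) * g := by group
        _ = z := by rw [h, hzc]; group
    · rcases hx with rfl | rfl
      · exact (hne h).elim
      · rw [h, mul_assoc, ha02, mul_one]
    · rcases hx with rfl | rfl
      · rw [h, ← mul_assoc, hzc, mul_assoc, ha02, mul_one]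
      · exact (hne h).elim
  have hsq1 : ∀ y ∈ ⁅P, P⁆, y * y = 1 := fun y hy => by
    by_contra hne
    obtain ⟨v, hv, h1, h2⟩ := exists_order_four hG hne
    have hvA : v ∈ ⁅P, P⁆ := zpowers_le_of_mem hy hv
    have hv' := conj_mem_of_mem_normalizer hgn' hvA
    have h3 := hLP.omega (Subgroup.mul_mem _ hvA hvA) h2
    have h4 : g * (v * v) * g⁻¹ ∈ E0 :=
      hLP.omega (conj_mem_of_mem_normalizer hgn' (Subgroup.mul_mem _ hvA hvA)) (conj_mul_self h2 g)
    have h5 := hswap (v * v) (((hE0m _).1 h3).resolve_left h1 |>.resolve_left (hnz v hvA)) h4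
    refine hnz _ (Subgroup.mul_mem _ hvA hv') ?_
    rw [(show Commute (g * v * g⁻¹) v from hLP.comm hv' hvA).mul_mul_mul_comm, ← h5]; group
  have hAE : ⁅P, P⁆ ≤ E0 := fun y hy => hLP.omega hy (hsq1 y hy)
  have hc1 := H9.card_le_of_le' hAE
  have hc2 := hLP.card_eq.1
  have hc3 := H9.mul_card_le_of_lt (p := 2) (hG.to_subgroup _) hlt
  have hc4 := H9.mul_card_le_of_lt (p := 2) (hG.to_subgroup P)
      (lt_of_le_of_ne (inf_le_right : T ⊓ P ≤ P) fun h => haT (h.ge hLP.mem).1)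
  have hAE' : ⁅P, P⁆ = E0 := eq_of_le_of_card_ge hAE (by omega)
  obtain ⟨h, hhT, hhP, hha⟩ : ∃ h ∈ T, h ∈ P ∧ ⁅h, a⁆ = a0 := by
    obtain ⟨h, hh, e⟩ := hLP.exists_comm (hAE'.ge ha0)
    by_cases hhT : h ∈ T
    · exact ⟨h, hhT, hh, e⟩
    · exact ⟨h * a, hTa h hhT, P.mul_mem hh hLP.mem, by
        rw [← e]; simp only [commutatorElement_def]; group⟩
  have hhB : h ∉ B0 := fun hb => by
    have h1 : ∀ x ∈ W, ⁅x, a⁆ ∈ W := fun x hx => by
      rw [commutatorElement_def, mul_assoc, mul_assoc, ← mul_assoc a]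
      exact W.mul_mem hx (hWn.conj_mem _ (W.inv_mem hx) a)
    rcases (hB0m h).1 hb with h2 | h2
    · exact ha0W (hha ▸ h1 h h2)
    · refine ha0W ?_
      have h3 := h1 _ h2
      rwa [commutatorElement_def, mul_inv_rev, mul_assoc h, hEc a0 ha0.2 a haE, mul_assoc h,
        mul_assoc a, mul_inv_cancel_left, ← mul_assoc, ← commutatorElement_def, hha] at h3
  have hi : B0.relIndex (T ⊓ P) = 2 := by
    have := card_eq_relIndex_mul_of_le hB0le
    rw [hB08] at this; omega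
  refine ⟨a, a0, h, hWn, hW4, hWm, hz1, hzc, hE a haE, haw', ha02, ha0W, hEc _ ha0.2 _ haE,
    hT ▸ ha0.1, hT ▸ hhT, (hPm h).1 hhP, hha, fun g hg h1 h2 => ?_, fun g hg h1 => ?_,
    by rw [← hP]; omega, g, ?_⟩
  · rw [← hT] at hg
    rcases (hE0m g).1 ⟨hg, hcenE g ((hPm g).2 h2) h1⟩ with rfl | rfl | rfl | rfl
    · exact Or.inl (one_mem _)
    · exact Or.inl (mem_zpowers _)
    · exact Or.inr (by rw [ha02]; exact one_mem _)
    · exact Or.inr (by rw [mul_assoc, ha02, mul_one]; exact mem_zpowers _)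
  · rw [← hT] at hg
    rw [← hB0m, ← hB0m, or_iff_not_imp_left]
    intro hgB
    have := H9.inv_mul_mem_of_relIndex_two hi (a := g⁻¹) (b := h⁻¹)
      (Subgroup.inv_mem _ ⟨hg, (hPm g).2 h1⟩) (Subgroup.inv_mem _ ⟨hhT, hhP⟩)
      (by simpa using hgB) (by simpa using hhB)
    simpa using this
  · have h1 := hswap a0 (Or.inl rfl) (hAE (conj_mem_of_mem_normalizer hgn' (hAE'.ge ha0)))
    rw [← hzc, ← h1, ← mul_assoc, ha02, one_mul]

end Cfsg.Agent.H6
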