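import Cfsg.Agent.Lib.H6.SecB

/-! Harada's four generator theorem: the main configuration, small cases (helper6). -/

set_option autoImplicit false
set_option linter.style.haveILetI false
open Cfsg Subgroup
open scoped Pointwise commutatorElement

namespace Cfsg.Agent.H6

variable {G : Type*} [Group G]

theorem commutator_mem_of_index_le_two [Finite G] {X : Subgroup G} (h : X.index ≤ 2) (x y : G) :
    ⁅x, y⁆ ∈ X := by
  have h0 : X.index ≠ 0 := index_ne_zero_of_finite
  rcases (show X.index = 1 ∨ X.index = 2 by omega) with h1 | h1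
  · rw [index_eq_one.1 h1]; exact mem_top _
  · simp only [commutatorElement_def, mul_mem_iff_of_index_two h1, inv_mem_iff]; tauto

theorem normal_of_index_le_two [Finite G] {X : Subgroup G} (h : X.index ≤ 2) : X.Normal :=
  ⟨fun x hx g => by
    have := X.mul_mem (commutator_mem_of_index_le_two h g x) hx
    rwa [commutatorElement_def, inv_mul_cancel_right] at this⟩

theorem index_sup_mul_card_map [Finite G] (K N : Subgroup G) [N.Normal] :
    (K ⊔ N).index * Nat.card (K.map (QuotientGroup.mk' N)) = N.index := by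
  have hXc : K ⊔ N = (K.map (QuotientGroup.mk' N)).comap (QuotientGroup.mk' N) := by
    rw [comap_map_eq, QuotientGroup.ker_mk']
  rw [hXc, index_comap_of_surjective _ (QuotientGroup.mk'_surjective _), index_mul_card]; rfl

theorem commutator_mem_normal_left {N : Subgroup G} [hN : N.Normal] {x : G} (hx : x ∈ N) (g : G) :
    ⁅x, g⁆ ∈ N := by
  rw [commutatorElement_def, mul_assoc, mul_assoc, ← mul_assoc g]
  exact N.mul_mem hx (hN.conj_mem _ (N.inv_mem hx) g)

theorem commutator_mem_normal_right {N : Subgroup G} [hN : N.Normal] {x : G} (hx : x ∈ N) (g : G) :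
    ⁅g, x⁆ ∈ N := H9.commutator_mem_comm (commutator_mem_normal_left hx g)

theorem commutator_mul_left' (x y g : G) : ⁅x * y, g⁆ = x * ⁅y, g⁆ * x⁻¹ * ⁅x, g⁆ := by
  simp only [commutatorElement_def]; group

theorem commutator_mul_right' (x y g : G) : ⁅g, x * y⁆ = ⁅g, x⁆ * (x * ⁅g, y⁆ * x⁻¹) := by
  simp only [commutatorElement_def]; group

theorem commute_of_commutator_eq {x y g : G} (h : ⁅x, g⁆ = ⁅y, g⁆) :
    y⁻¹ * x * g = g * (y⁻¹ * x) := by
  rw [commutatorElement_def, commutatorElement_def, mul_left_inj] at h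
  calc y⁻¹ * x * g = y⁻¹ * (x * g * x⁻¹) * x := by group
    _ = g * (y⁻¹ * x) := by rw [h]; group

theorem commutator_eq_sq_of_inverts {y g : G} (h : g * y * g⁻¹ = y⁻¹) : ⁅y, g⁆ = y * y := by
  have : g * y⁻¹ * g⁻¹ = y := by
    calc g * y⁻¹ * g⁻¹ = (g * y * g⁻¹)⁻¹ := by group
      _ = y := by rw [h, inv_inv]
  rw [commutatorElement_def, mul_assoc, mul_assoc, ← mul_assoc g, this]

theorem inverts_commutator {g x : G} (hg : g * g = 1) : g * ⁅x, g⁆ * g⁻¹ = ⁅x, g⁆⁻¹ := by
  have hi := inv_eq_of_mul_self hg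
  rw [commutatorElement_inv, commutatorElement_def, commutatorElement_def, hi]
  calc g * (x * g * x⁻¹ * g) * g = g * x * g * x⁻¹ * (g * g) := by group
    _ = g * x * g * x⁻¹ := by rw [hg, mul_one]

namespace C2

variable {W : Subgroup G} {z w a a0 h : G}

theorem W_sq (c : C2 W z w a a0 h) {x : G} (hx : x ∈ W) : x * x = 1 :=
  (isKleinFour_iff.1 c.four).2 x hx

theorem W_card (c : C2 W z w a a0 h) : Nat.card W = 4 := (isKleinFour_iff.1 c.four).1

theorem zW (c : C2 W z w a a0 h) : z ∈ W := (c.memW z).2 (by simp)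

theorem wW (c : C2 W z w a a0 h) : w ∈ W := (c.memW w).2 (by simp)

theorem z2 (c : C2 W z w a a0 h) : z * z = 1 := c.W_sq c.zW

theorem zpowers_le (c : C2 W z w a a0 h) : zpowers z ≤ W := zpowers_le_of_mem c.zW

theorem W_le (c : C2 W z w a a0 h) : W ≤ centralizer (W : Set G) := fun _ hx =>
  mem_centralizer_iff.2 fun _ hy => commute_of_mul_self (fun _ h => c.W_sq h) hy hx

theorem commW {g x : G} (hg : g ∈ centralizer (W : Set G)) (hx : x ∈ W) : Commute g x :=
  (mem_centralizer_iff.1 hg x hx).symm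

theorem aT (c : C2 W z w a a0 h) : a ∉ centralizer (W : Set G) := fun ha => by
  have := c.aw
  rw [(commW ha c.wW).eq, mul_inv_cancel_right, eq_comm, mul_eq_right] at this
  exact c.z1 this

theorem T_index [Finite G] (hG : IsPGroup 2 G) (c : C2 W z w a a0 h) :
    (centralizer (W : Set G)).index = 2 := by
  haveI := c.normal
  have h1 := index_centralizer_four_le hG c.W_card
  have h2 : (centralizer (W : Set G)).index ≠ 0 := index_ne_zero_of_finite
  have h3 : (centralizer (W : Set G)).index ≠ 1 := fun h => c.aT (index_eq_one.1 h ▸ mem_top a)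
  omega

theorem mul_conj (c : C2 W z w a a0 h) {x : G} (hx : x ∈ W) (h1 : x ≠ 1) (hz : x ≠ z) :
    x * (a * x * a⁻¹) = z := by
  rcases (c.memW x).1 hx with rfl | rfl | rfl | rfl
  · exact (h1 rfl).elim
  · exact (hz rfl).elim
  · rw [c.aw, ← mul_assoc, c.zc, mul_assoc, c.W_sq hx, mul_one]
  · rw [← mul_assoc a, c.zc a, mul_assoc z a, mul_assoc z (a * w), c.aw, ← mul_assoc z z, c.z2,
      one_mul, mul_assoc, c.W_sq c.wW, mul_one]

theorem memB (c : C2 W z w a a0 h) {g : G} : g ∈ W ⊔ zpowers a0 ↔ g ∈ W ∨ g * a0 ∈ W := by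
  haveI := c.normal
  rw [mem_sup_zpowers (le_normalizer_of_normal (K := ⊤) (mem_top a0))
    (by rw [c.a02]; exact W.one_mem), inv_eq_of_mul_self c.a02]

theorem cardB [Finite G] (c : C2 W z w a a0 h) : Nat.card (W ⊔ zpowers a0 : Subgroup G) = 8 := by
  haveI := c.normal
  rw [card_sup_zpowers_eq (le_normalizer_of_normal (K := ⊤) (mem_top a0))
    (by rw [c.a02]; exact W.one_mem) c.a0W, c.W_card]

theorem B_cases (c : C2 W z w a a0 h) {g : G} (hg : g ∈ W ⊔ zpowers a0) :
    g ∈ W ∨ ∃ x ∈ W, g = x * a0 :=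
  (c.memB.1 hg).imp id fun h => ⟨_, h, by rw [mul_assoc, c.a02, mul_one]⟩

theorem P_cases (c : C2 W z w a a0 h) {g : G} (hg : g ∈ centralizer (W : Set G))
    (h0 : g * a0 = a0 * g) : g ∈ W ⊔ zpowers a0 ∨ ∃ b ∈ W ⊔ zpowers a0, g = b * h :=
  (c.cenP g hg h0).imp c.memB.2 fun h1 => ⟨_, c.memB.2 h1, by group⟩

theorem commB (c : C2 W z w a a0 h) {g b : G} (hg : g ∈ centralizer (W : Set G))
    (h0 : g * a0 = a0 * g) (hb : b ∈ W ⊔ zpowers a0) : Commute g b := by
  rcases c.B_cases hb with h1 | ⟨x, hx, rfl⟩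
  · exact commW hg h1
  · exact (commW hg hx).mul_right h0

theorem B_le (c : C2 W z w a a0 h) :
    W ⊔ zpowers a0 ≤ centralizer (W : Set G) ⊓ centralizer ({a0} : Set G) :=
  sup_le (le_inf c.W_le fun _ hx => mem_centralizer_singleton_iff.2 (commW c.a0T hx).symm.eq)
    (zpowers_le_of_mem ⟨c.a0T, mem_centralizer_singleton_iff.2 rfl⟩)

theorem B_sq (c : C2 W z w a a0 h) {b : G} (hb : b ∈ W ⊔ zpowers a0) : b * b = 1 := by
  rcases c.B_cases hb with h1 | ⟨x, hx, rfl⟩
  · exact c.W_sq h1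
  · rw [(commW c.a0T hx).mul_mul_mul_comm, c.W_sq hx, c.a02, mul_one]

theorem commP (c : C2 W z w a a0 h) {x y : G} (hx : x ∈ centralizer (W : Set G))
    (hx0 : x * a0 = a0 * x) (hy : y ∈ centralizer (W : Set G)) (hy0 : y * a0 = a0 * y) :
    Commute x y := by
  rcases c.P_cases hy hy0 with h1 | ⟨b, hb, rfl⟩
  · exact c.commB hx hx0 h1
  refine (c.commB hx hx0 hb).mul_right ?_
  rcases c.P_cases hx hx0 with h1 | ⟨b', hb', rfl⟩
  · exact (c.commB c.hT c.ha0 h1).symm
  · exact (c.commB c.hT c.ha0 hb').symm.mul_left (Commute.refl h)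

theorem comm_W_a (c : C2 W z w a a0 h) {x : G} (hx : x ∈ W) : ⁅x, a⁆ ∈ zpowers z := by
  by_cases h1 : x = 1
  · simp [h1]
  by_cases h2 : x = z
  · rw [h2, commutatorElement_eq_one_iff_mul_comm.2 (c.zc a).symm]; exact one_mem _
  have := c.mul_conj hx h1 h2
  rw [commutatorElement_def, inv_eq_of_mul_self (c.W_sq hx), mul_assoc, mul_assoc, ← mul_assoc a,
    this]
  exact mem_zpowers z

theorem comm_B_a (c : C2 W z w a a0 h) {b : G} (hb : b ∈ W ⊔ zpowers a0) :
    ⁅b, a⁆ ∈ zpowers z := by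
  rcases c.B_cases hb with h1 | ⟨x, hx, rfl⟩
  · exact c.comm_W_a h1
  · rw [commutator_mul_left', commutatorElement_eq_one_iff_mul_comm.2 c.a0a]
    simpa using c.comm_W_a hx

theorem comm_Bh_a (c : C2 W z w a a0 h) {b : G} (hb : b ∈ W ⊔ zpowers a0) :
    ⁅b * h, a⁆ = a0 ∨ ⁅b * h, a⁆ = z * a0 := by
  rw [commutator_mul_left', c.ha, (c.commB c.a0T rfl hb).symm.eq, mul_inv_cancel_right]
  rcases (mem_zpowers_two c.z2).1 (c.comm_B_a hb) with h1 | h1 <;> rw [h1]
  · exact Or.inl (mul_one _)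
  · exact Or.inr (c.zc _)

theorem card_P0 [Finite G] (hG : IsPGroup 2 G) (c : C2 W z w a a0 h) :
    Nat.card (centralizer (W : Set G) ⊓ centralizer ({a0} : Set G) : Subgroup G) = 16 := by
  have h1 := card_le_index_mul (centralizer ({a0} : Set G)) (centralizer (W : Set G))
  have h2 := H9.mul_card_le_of_lt (p := 2) (hG.to_subgroup (centralizer ({a0} : Set G)))
    (lt_of_le_of_ne (inf_le_right : centralizer (W : Set G) ⊓ centralizer ({a0} : Set G) ≤ _)
      fun h1 => c.aT (h1.ge (mem_centralizer_singleton_iff.2 c.a0a.symm)).1)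
  rw [c.T_index hG, c.card] at h1
  rw [c.card] at h2
  omega

theorem not_mem [Finite G] (c : C2 W z w a a0 h) {K L : Subgroup G} (hs : Sec K L)
    (h32 : 32 ≤ L.relIndex K) (g : G) : g * a0 * g⁻¹ ∉ K := fun hK => by
  have h1 := hs.relIndex_le_card_centralizer hK
  have h2 := card_centralizer_conj g a0
  rw [c.card] at h2
  have h3 : K ⊓ centralizer ({g * a0 * g⁻¹} : Set G) = centralizer {g * a0 * g⁻¹} :=
    eq_of_le_of_card_ge inf_le_right (by omega)
  have h4 : ∀ x, x * a0 = a0 * x → g * x * g⁻¹ ∈ K := fun x hx => (h3.ge (by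
    rw [← cj_centralizer_singleton]
    exact conj_mem_cj (mem_centralizer_singleton_iff.2 hx))).1
  have h5 := hs.comm_mem (h4 h c.ha0) (h4 a c.a0a.symm)
  rw [← conjugate_commutatorElement, c.ha] at h5
  have h6 := hs.relIndex_lt_card_centralizer h5
    (by simpa using fun h : a0 = 1 => c.a0W (h ▸ W.one_mem))
  rw [h3] at h6
  omega

theorem center_mem (c : C2 W z w a a0 h) {x : G} (hx : ∀ g, g * x = x * g) : x ∈ zpowers z := by
  refine (c.cenE x (mem_centralizer_iff.2 fun g _ => hx g) (hx a).symm (hx a0).symm).resolve_right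
    fun h1 => ?_
  obtain ⟨g, hg⟩ := c.fuse
  have h2 : g * (x * a0) * g⁻¹ = x * a0 := by
    rcases (mem_zpowers_two c.z2).1 h1 with h2 | h2 <;> rw [h2]
    · simp
    · rw [c.zc]; simp
  rw [← mul_assoc, hx g, mul_assoc, mul_assoc, mul_right_inj, ← mul_assoc, hg, mul_eq_right] at h2
  exact c.z1 h2

variable [Finite G] {B : Subgroup G}

theorem N_le (hWB : W ≤ B) : centralizer (B : Set G) ≤ centralizer (W : Set G) :=
  centralizer_le hWB

theorem caseIn (hG : IsPGroup 2 G) (c : C2 W z w a a0 h) (hB : Alp B) (hWB : W ≤ B)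
    (h0 : a0 ∈ centralizer (B : Set G)) : SR (⊤ : Subgroup G) 16 := by
  intro K L _ hs
  by_contra hlt
  have h32 : 2 ^ (4 + 1) ≤ L.relIndex K :=
    two_pow_ge_of_gt (relIndex_two_pow hG L K) (not_le.1 hlt)
  haveI := hB.normal
  haveI := c.normal
  have ha0B := hB.mem_of_sq h0 c.a02
  obtain ⟨N, hN⟩ : ∃ N, N = centralizer (B : Set G) := ⟨_, rfl⟩
  haveI : N.Normal := by rw [hN]; infer_instance
  have hBN : B ≤ N := hN ▸ hB.le
  have hNT : ∀ x ∈ N, x ∈ centralizer (W : Set G) := fun x hx => N_le hWB (hN ▸ hx)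
  have hN0 : ∀ x ∈ N, x * a0 = a0 * x := fun x hx => (Alp.commute (hN ▸ hx) ha0B).eq
  have hNe : N = centralizer (W : Set G) ⊓ centralizer ({a0} : Set G) := by
    refine le_antisymm (fun x hx => ⟨hNT x hx, mem_centralizer_singleton_iff.2 (hN0 x hx)⟩)
      fun x hx => ?_
    rw [hN]
    exact mem_centralizer_iff.2 fun b hb => c.commP (hNT b (hBN hb)) (hN0 b (hBN hb)) hx.1
      (mem_centralizer_singleton_iff.1 hx.2)
  have hN16 : Nat.card N = 16 := hNe ▸ c.card_P0 hG
  have hNc : ∀ x ∈ N, ∀ y ∈ N, Commute x y := fun x hx y hy =>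
    c.commP (hNT x hx) (hN0 x hx) (hNT y hy) (hN0 y hy)
  have ha0K : a0 ∉ K := by simpa using c.not_mem hs h32 1
  have hza0K : z * a0 ∉ K := by
    obtain ⟨g, hg⟩ := c.fuse
    rw [← hg]; exact c.not_mem hs h32 g
  have hG128 : Nat.card G ≤ 128 := by
    obtain ⟨y, hyN, hyW, -, hyc⟩ := H9.exists_mem_commutator_mem_of_lt (p := 2) (K := W) (N := N)
      (P := ⊤) (hG.to_subgroup _) le_top le_normalizer_of_normal le_normalizer_of_normal
      (lt_of_le_of_ne (hWB.trans hBN) fun h1 => by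
        have := c.W_card; rw [h1, hN16] at this; omega)
    have h1 : ∀ g ∈ (⊤ : Subgroup G), ⁅g, a0⁆ ∈ W := by
      rcases c.P_cases (hNT y hyN) (hN0 y hyN) with h1 | ⟨b, hb, rfl⟩
      · rcases c.B_cases h1 with h2 | ⟨x, hx, rfl⟩
        · exact (hyW h2).elim
        · intro g hg
          have h3 := hyc g hg
          rw [commutator_mul_right'] at h3
          have h4 := (W.mul_mem_cancel_left (commutator_mem_normal_right hx g)).1 h3
          simpa [mul_assoc] using c.normal.conj_mem _ h4 x⁻¹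
      · have h2 := H9.commutator_mem_comm (hyc a (mem_top a))
        rcases c.comm_Bh_a hb with h3 | h3 <;> rw [h3] at h2
        · exact (c.a0W h2).elim
        · exact (c.a0W ((W.mul_mem_cancel_left c.zW).1 h2)).elim
    have h2 := relIndex_centralizer_le h1
    rw [relIndex_top_right, c.W_card] at h2
    rw [← (centralizer ({a0} : Set G)).index_mul_card, c.card]
    omega
  have hNi : N.index ≤ 8 := by
    have := N.index_mul_card; rw [hN16] at this; omega
  have hsp := relIndex_split_normal hs.le N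
  have hXi := index_sup_mul_card_map K N
  have hi1 := relIndex_le_card (L.map (QuotientGroup.mk' N)) (K.map (QuotientGroup.mk' N))
  have hK0 := (hs.inf N).card_eq
  have hL0 : 0 < Nat.card (L ⊓ N : Subgroup G) := Nat.card_pos
  have hX0 : (K ⊔ N).index ≠ 0 := index_ne_zero_of_finite
  have hK8 := H9.mul_card_le_of_lt (p := 2) (hG.to_subgroup N)
    (lt_of_le_of_ne (inf_le_right : K ⊓ N ≤ N) fun h1 => ha0K (h1.ge (hBN ha0B)).1)
  have key : (∀ x ∈ K ⊓ N, ⁅x, a⁆ ∈ K) → K ⊓ N < W ⊔ zpowers a0 := fun hk => by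
    refine lt_of_le_of_ne (fun x hx => ?_) fun h1 =>
      ha0K (h1.ge (mem_sup_right (mem_zpowers a0))).1
    refine (c.P_cases (hNT x hx.2) (hN0 x hx.2)).resolve_right ?_
    rintro ⟨b, hb, rfl⟩
    have h2 := hk _ hx
    rcases c.comm_Bh_a hb with h3 | h3 <;> rw [h3] at h2
    exacts [ha0K h2, hza0K h2]
  generalize hi0 : (L ⊓ N).relIndex (K ⊓ N) = i0 at hsp hK0
  generalize hi1' : (L.map (QuotientGroup.mk' N)).relIndex (K.map (QuotientGroup.mk' N)) = i1
    at hsp hi1
  have hi0le : i0 ≤ Nat.card (K ⊓ N : Subgroup G) := by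
    rw [hK0]; exact Nat.le_mul_of_pos_right _ hL0
  rcases two_pow_le_or (hi1' ▸ H9.exists_relIndex_eq_pow
    ((hG.to_subgroup K).map (QuotientGroup.mk' N)) : ∃ i, i1 = 2 ^ i) 2 with h4 | h8
  · -- `K ⊓ N` has order eight and is normal
    have hi08 : 8 ≤ i0 := by
      by_contra h1
      have : i0 * i1 ≤ 7 * 4 := Nat.mul_le_mul (by omega) h4
      omega
    have hi14 : 4 ≤ i1 := by
      by_contra h1
      have : i0 * i1 ≤ 8 * 3 := Nat.mul_le_mul (by omega) (by omega)
      omega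
    have hL1 : L ⊓ N = ⊥ := ((hs.inf N).eq_of_card_le le_rfl (by omega)).2
    haveI : (K ⊔ N).Normal := normal_of_index_le_two (by
      have : (K ⊔ N).index * 4 ≤ N.index := hXi ▸ Nat.mul_le_mul_left _ (by omega)
      omega)
    have hU : K ⊓ N ≤ N ⊓ centralizer ((K ⊔ N : Subgroup G) : Set G) := fun x hx => by
      refine ⟨hx.2, mem_centralizer_iff.2 fun y hy => ?_⟩
      obtain ⟨k, hk, n, hn, rfl⟩ := H2.exists_mul_of_mem_sup le_normalizer_of_normal hy
      have h1 : ⁅k, x⁆ ∈ L ⊓ N := ⟨hs.comm_mem hk hx.1, commutator_mem_normal_right hx.2 k⟩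
      rw [hL1, mem_bot, commutatorElement_eq_one_iff_commute] at h1
      exact h1.mul_left (hNc n hn x hx.2)
    have hU2 : N ⊓ centralizer ((K ⊔ N : Subgroup G) : Set G) < N := by
      refine lt_of_le_of_ne inf_le_left fun h1 => ?_
      have h2 : K ≤ N := fun k hk => by
        rw [hN]
        exact mem_centralizer_iff.2 fun b hb =>
          (mem_centralizer_iff.1 (h1.ge (hBN hb)).2 k (mem_sup_left hk)).symm
      have h3 : K.map (QuotientGroup.mk' N) = ⊥ := by
        rwa [Subgroup.map_eq_bot_iff, QuotientGroup.ker_mk']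
      rw [h3, card_bot] at hi1; omega
    have h5 := H9.mul_card_le_of_lt (p := 2) (hG.to_subgroup N) hU2
    have h6 := eq_of_le_of_card_ge hU (by omega)
    haveI : (K ⊓ N).Normal := by rw [h6]; infer_instance
    have h7 := H2.card_lt_of_lt (key fun x hx => (commutator_mem_normal_left hx a).1)
    rw [c.cardB] at h7; omega
  · have hX1 : (K ⊔ N).index = 1 := by
      have : (K ⊔ N).index * 8 ≤ N.index := hXi ▸ Nat.mul_le_mul_left _ (by omega)
      omega
    have hi18 : i1 ≤ 8 := by rw [hX1] at hXi; omega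
    have hi04 : 4 ≤ i0 := by
      by_contra h1
      have : i0 * i1 ≤ 3 * 8 := Nat.mul_le_mul (by omega) hi18
      omega
    obtain ⟨k, hk, n, hn, ha⟩ := H2.exists_mul_of_mem_sup (H := K) (N := N) (x := a)
      le_normalizer_of_normal (index_eq_one.1 hX1 ▸ mem_top a)
    have hca : ∀ x ∈ K ⊓ N, ⁅x, a⁆ ∈ L ⊓ N := fun x hx => by
      refine ⟨?_, commutator_mem_normal_left hx.2 a⟩
      rw [ha, commutator_mul_right', commutatorElement_eq_one_iff_commute.2 (hNc x hx.2 n hn)]
      simpa using hs.comm_mem hx.1 hk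
    have h5 := H9.mul_card_le_of_lt (p := 2) (hG.to_subgroup _)
      (key fun x hx => hs.le (hca x hx).1)
    rw [c.cardB] at h5
    have hL1 : L ⊓ N = ⊥ := ((hs.inf N).eq_of_card_le le_rfl (by omega)).2
    have h6 : K ⊓ N ≤ zpowers z ⊔ zpowers a0 := fun x hx => by
      have h1 := hca x hx
      rw [hL1, mem_bot, commutatorElement_eq_one_iff_mul_comm] at h1
      rcases c.cenE x (hNT x hx.2) h1 (hN0 x hx.2) with h2 | h2
      · exact mem_sup_left h2
      · have := mul_mem (mem_sup_left h2) (mem_sup_right (S := zpowers z) (mem_zpowers a0))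
        rwa [mul_assoc, c.a02, mul_one] at this
    have h7 := card_sup_zpowers_le (H := zpowers z) (s := a0)
      (mem_normalizer_zpowers (by rw [c.zc]; simp)) (by rw [c.a02]; exact one_mem _)
    rw [Nat.card_zpowers, orderOf_eq_two c.z2 c.z1] at h7
    exact ha0K ((eq_of_le_of_card_ge h6 (by omega)).ge (mem_sup_right (mem_zpowers a0))).1

end C2

end Cfsg.Agent.H6
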