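import Cfsg.Agent.Lib.H6.SecC

/-! Harada's four generator theorem: the case `a0 ∉ N`, rank at least three (helper6). -/

set_option autoImplicit false
set_option linter.style.haveILetI false
open Cfsg Subgroup
open scoped Pointwise commutatorElement

namespace Cfsg.Agent.H6

variable {G : Type*} [Group G]

theorem Sec.relIndex_inf_le [Finite G] {K L : Subgroup G} (h : Sec K L) (M : Subgroup G) [M.Normal]
    {g : G} (hg : g ∈ K) : (L ⊓ M).relIndex (K ⊓ M) ≤
      Nat.card (K ⊓ M ⊓ centralizer ({g} : Set G) : Subgroup G) := by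
  have h1 := relIndex_centralizer_le (H := K ⊓ M) (N := L ⊓ M) (x := g) fun k hk =>
    ⟨h.comm_mem hk.1 hg, commutator_mem_normal_left hk.2 g⟩
  have h2 := H9.card_eq_relIndex_mul' (K := centralizer ({g} : Set G)) (L := K ⊓ M)
  rw [inf_comm (centralizer _)] at h2
  refine relIndex_le_of_card_le (h.inf M).le ?_
  rw [h2, mul_comm]
  exact Nat.mul_le_mul_left _ h1

/-- The configuration with `a0 ∉ N`. -/
structure C3 (W B N : Subgroup G) (z w a a0 h : G) : Prop extends C2 W z w a a0 h where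
  alp : Alp B
  WB : W ≤ B
  hN : N = centralizer (B : Set G)
  a0N : a0 ∉ N

namespace C3

open C2

variable {W B N : Subgroup G} {z w a a0 h : G}

theorem N_normal (c : C3 W B N z w a a0 h) : N.Normal := by
  haveI := c.alp.normal; rw [c.hN]; infer_instance

theorem BN (c : C3 W B N z w a a0 h) : B ≤ N := c.hN ▸ c.alp.le

theorem WN (c : C3 W B N z w a a0 h) : W ≤ N := c.WB.trans c.BN

theorem NT (c : C3 W B N z w a a0 h) : N ≤ centralizer (W : Set G) := c.hN ▸ centralizer_le c.WB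

theorem commNB (c : C3 W B N z w a a0 h) {x b : G} (hx : x ∈ N) (hb : b ∈ B) : Commute x b :=
  Alp.commute (c.hN ▸ hx) hb

theorem memB4 (c : C3 W B N z w a a0 h) {x : G} (hx : x ∈ N) (h4 : x * x * (x * x) = 1) : x ∈ B :=
  c.alp.mem x (c.hN ▸ hx) h4

theorem cen_a0 (c : C3 W B N z w a a0 h) {x : G} (hx : x ∈ N) (h0 : x * a0 = a0 * x) : x ∈ W := by
  haveI := c.N_normal
  rcases c.P_cases (c.NT hx) h0 with h1 | ⟨b, hb, rfl⟩
  · rcases c.B_cases h1 with h2 | ⟨y, hy, rfl⟩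
    · exact h2
    · exact (c.a0N ((N.mul_mem_cancel_left (c.WN hy)).1 hx)).elim
  · have h2 := commutator_mem_normal_left hx a
    rcases c.comm_Bh_a hb with h3 | h3 <;> rw [h3] at h2
    · exact (c.a0N h2).elim
    · exact (c.a0N ((N.mul_mem_cancel_left (c.WN c.zW)).1 h2)).elim

theorem cen_k0 [Finite G] (hG : IsPGroup 2 G) (c : C3 W B N z w a a0 h) {n x : G} (hn : n ∈ N)
    (hx : x ∈ N) (h0 : Commute x (n * a0)) : x ∈ W := by
  have key : ∀ y ∈ B, Commute y (n * a0) → y ∈ W := fun y hy h1 => by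
    have := (c.commNB hn hy).symm.inv_right.mul_right h1
    rw [inv_mul_cancel_left] at this
    exact c.cen_a0 (c.BN hy) this
  by_cases h2 : x * x = 1
  · exact key x (c.memB4 hx (by rw [h2, mul_one])) h0
  obtain ⟨y, hy, h3, h4⟩ := exists_order_four hG h2
  obtain ⟨i, rfl⟩ := mem_zpowers_iff.1 hy
  exact (h3 (c.W_sq (key _ (c.memB4 (N.zpow_mem hx i) h4) (h0.zpow_left i)))).elim

theorem memY (c : C3 W B N z w a a0 h) {y : G} : y ∈ N ⊔ zpowers a0 ↔ y ∈ N ∨ y * a0 ∈ N := by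
  haveI := c.N_normal
  rw [mem_sup_zpowers (le_normalizer_of_normal (K := ⊤) (mem_top a0))
    (by rw [c.a02]; exact N.one_mem), inv_eq_of_mul_self c.a02]

theorem Y_cases (c : C3 W B N z w a a0 h) {g : G} (hg : g ∈ N ⊔ zpowers a0) :
    g ∈ N ∨ ∃ x ∈ N, g = x * a0 :=
  (c.memY.1 hg).imp id fun h => ⟨_, h, by rw [mul_assoc, c.a02, mul_one]⟩

theorem YT (c : C3 W B N z w a a0 h) : N ⊔ zpowers a0 ≤ centralizer (W : Set G) :=
  sup_le c.NT (zpowers_le_of_mem c.a0T)

theorem a0Y (N : Subgroup G) (a0 : G) : a0 ∈ N ⊔ zpowers a0 := mem_sup_right (mem_zpowers a0)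

variable [Finite G]

theorem cardY (c : C3 W B N z w a a0 h) :
    Nat.card (N ⊔ zpowers a0 : Subgroup G) = 2 * Nat.card N := by
  haveI := c.N_normal
  exact card_sup_zpowers_eq (le_normalizer_of_normal (K := ⊤) (mem_top a0))
    (by rw [c.a02]; exact N.one_mem) c.a0N

theorem lp (hG : IsPGroup 2 G) (c : C3 W B N z w a a0 h) : LP (N ⊔ zpowers a0) W a0 :=
  ⟨hG.to_subgroup _, c.four, c.WN.trans le_sup_left, fun _ hw _ hg => (commW (c.YT hg) hw).eq,
    a0Y N a0, c.a0W, c.a02, fun g hg h0 => (c.memY.1 hg).imp (fun h1 => c.cen_a0 h1 h0)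
      fun h1 => c.cen_a0 h1 (by rw [← mul_assoc, ← h0])⟩

theorem usurj (hG : IsPGroup 2 G) (c : C3 W B N z w a a0 h) {y : G}
    (hy : y ∈ ⁅N ⊔ zpowers a0, N ⊔ zpowers a0⁆) : ∃ g ∈ N, ⁅g, a0⁆ = y := by
  obtain ⟨g, hg, rfl⟩ := (c.lp hG).exists_comm hy
  rcases c.memY.1 hg with h1 | h1
  · exact ⟨g, h1, rfl⟩
  · exact ⟨_, h1, by simp only [commutatorElement_def]; group⟩

theorem AN (hG : IsPGroup 2 G) (c : C3 W B N z w a a0 h) :
    ⁅N ⊔ zpowers a0, N ⊔ zpowers a0⁆ ≤ N := fun y hy => by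
  haveI := c.N_normal
  obtain ⟨g, hg, rfl⟩ := c.usurj hG hy
  exact commutator_mem_normal_left hg a0

theorem cardN (hG : IsPGroup 2 G) (c : C3 W B N z w a a0 h) :
    Nat.card N = 4 * Nat.card (⁅N ⊔ zpowers a0, N ⊔ zpowers a0⁆ : Subgroup G) := by
  have h1 := (c.lp hG).card_eq.1
  rw [c.cardY] at h1; omega

theorem mem_normalizer_A (c : C3 W B N z w a a0 h) {g : G} (hg : ⁅g, a0⁆ ∈ N) :
    g ∈ normalizer ((N ⊔ zpowers a0 : Subgroup G) : Set G) ∧
    g ∈ normalizer ((⁅N ⊔ zpowers a0, N ⊔ zpowers a0⁆ : Subgroup G) : Set G) := by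
  haveI := c.N_normal
  have h1 : g ∈ normalizer ((N ⊔ zpowers a0 : Subgroup G) : Set G) :=
    mem_normalizer_of_conj_mem fun y hy => by
      rcases c.Y_cases hy with h1 | ⟨x, hx, rfl⟩
      · exact mem_sup_left (Normal.conj_mem inferInstance _ h1 g)
      · have := mul_mem (mem_sup_left (N.mul_mem (Normal.conj_mem inferInstance _ hx g) hg))
          (a0Y N a0)
        convert this using 1
        rw [commutatorElement_def]; group
  refine ⟨h1, ?_⟩
  rw [← cj_eq_self_iff] at h1 ⊢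
  rw [cj, map_commutator]; exact congrArg₂ _ h1 h1

theorem relIndex_le_of_k0 (hG : IsPGroup 2 G) (c : C3 W B N z w a a0 h) {K L : Subgroup G}
    (hs : Sec K L) {n : G} (hn : n ∈ N) (hk : n * a0 ∈ K) : (L ⊓ N).relIndex (K ⊓ N) ≤ 4 := by
  haveI := c.N_normal
  refine (hs.relIndex_inf_le N hk).trans ?_
  rw [← c.W_card]
  exact H9.card_le_of_le' fun x hx => c.cen_k0 hG hn hx.1.2 (mem_centralizer_singleton_iff.1 hx.2)

theorem sr_quot (hG : IsPGroup 2 G) (c : C3 W B N z w a a0 h) [N.Normal] {k : ℕ}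
    (hi : N.index ≤ 2 ^ (k + 1)) : SR (⊤ : Subgroup (G ⧸ N)) (2 ^ k) := by
  refine sr_of_not_comm ((hG.to_quotient N).to_subgroup ⊤) (by rw [card_top]; exact hi)
    (mem_top (QuotientGroup.mk' N h)) (mem_top (QuotientGroup.mk' N a)) ?_
  rw [← map_commutatorElement, c.ha]
  exact fun h1 => c.a0N ((QuotientGroup.eq_one_iff a0).1 h1)

theorem caseBig (hG : IsPGroup 2 G) (c : C3 W B N z w a a0 h) {v : G} (hvN : v ∈ N)
    (hv2 : v * v = 1) (hvW : v ∉ W) : SR (⊤ : Subgroup G) 16 := by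
  haveI := c.N_normal
  haveI := c.normal
  haveI := c.alp.normal
  have hLP := c.lp hG
  obtain ⟨A, hA⟩ : ∃ A, A = ⁅N ⊔ zpowers a0, N ⊔ zpowers a0⁆ := ⟨_, rfl⟩
  have hAN : A ≤ N := hA ▸ c.AN hG
  have hu : ∀ v ∈ B, v * v = 1 → ⁅v, a0⁆ ∈ W := fun v hv hv2 => by
    have h1 : ⁅v, a0⁆ ∈ B := commutator_mem_normal_left hv a0
    have h2 : ⁅v, a0⁆ * ⁅v, a0⁆ = 1 := by
      have e : ⁅v, a0⁆ = v * (a0 * v * a0⁻¹) := by
        rw [commutatorElement_def, inv_eq_of_mul_self hv2]; group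
      rw [e, (show Commute (a0 * v * a0⁻¹) v from c.alp.comm _
        (Normal.conj_mem inferInstance _ hv a0) _ hv).mul_mul_mul_comm, hv2, conj_mul_self hv2,
        mul_one]
    exact c.cen_a0 (c.BN h1) (commute_of_inverts_of_mul_self (inverts_commutator c.a02) h2).eq
  obtain ⟨v, hvB, hv2, huv⟩ : ∃ v ∈ B, v * v = 1 ∧ ⁅v, a0⁆ = z := by
    have hvB := c.memB4 hvN (by rw [hv2, mul_one])
    by_cases h1 : ⁅v, a0⁆ = z
    · exact ⟨v, hvB, hv2, h1⟩
    have h2 : ⁅v, a0⁆ ≠ 1 := fun h2 =>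
      hvW (c.cen_a0 hvN (commutatorElement_eq_one_iff_mul_comm.1 h2))
    have hv' := Normal.conj_mem inferInstance _ hvB a
    refine ⟨v * (a * v * a⁻¹), B.mul_mem hvB hv', ?_, ?_⟩
    · rw [(show Commute (a * v * a⁻¹) v from c.alp.comm _ hv' _ hvB).mul_mul_mul_comm, hv2,
        conj_mul_self hv2, mul_one]
    · have e : ⁅a * v * a⁻¹, a0⁆ = a * ⁅v, a0⁆ * a⁻¹ := by
        rw [conjugate_commutatorElement, ← c.a0a, mul_inv_cancel_right]
      have h3 := hu v hvB hv2
      have h4 := Normal.conj_mem inferInstance _ h3 a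
      rw [commutator_mul_left', e, (commW (c.NT hvN) h4).eq, mul_inv_cancel_right,
        (commW (c.W_le h4) h3).eq, c.mul_conj h3 h2 h1]
  have hvN := c.BN hvB
  have hvW : v ∉ W := fun h1 => c.z1 (by
    rw [← huv, commutatorElement_eq_one_iff_commute]; exact (commW c.a0T h1).symm)
  have hfib : ∀ x ∈ N, ⁅x, a0⁆ = z → v⁻¹ * x ∈ W := fun x hx e =>
    c.cen_a0 (N.mul_mem (N.inv_mem hvN) hx) (commute_of_commutator_eq (e.trans huv.symm))
  have hnz : ∀ y ∈ A, y * y ≠ z := fun y hy e => by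
    have h1 := c.W_sq (hfib y (hAN hy)
      ((commutator_eq_sq_of_inverts (hLP.inverts (hA ▸ hy))).trans e))
    rw [(c.commNB (hAN hy) hvB).inv_right.mul_mul_mul_comm, ← mul_inv_rev, hv2, inv_one, one_mul,
      e] at h1
    exact c.z1 h1
  have han : a ∈ normalizer (A : Set G) := hA ▸ (c.mem_normalizer_A (by
    rw [commutatorElement_eq_one_iff_mul_comm.2 c.a0a.symm]; exact N.one_mem)).2
  have hAW : A ≤ W := fun y hy => by
    refine hLP.omega (hA ▸ hy) ?_
    by_contra hne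
    obtain ⟨x, hx, h1, h2⟩ := exists_order_four hG hne
    have hxA : x ∈ A := zpowers_le_of_mem hy hx
    have hx' := conj_mem_of_mem_normalizer han hxA
    have h3 := c.mul_conj (hLP.omega (hA ▸ A.mul_mem hxA hxA) h2) h1 (hnz x hxA)
    refine hnz _ (A.mul_mem hxA hx') ?_
    rw [(show Commute (a * x * a⁻¹) x from hLP.comm (hA ▸ hx') (hA ▸ hxA)).mul_mul_mul_comm, ← h3]
    group
  have hN16 : Nat.card N ≤ 16 := by
    have h1 := c.cardN hG
    have h2 := H9.card_le_of_le' hAW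
    rw [← hA] at h1; rw [c.W_card] at h2; omega
  have hvn : v ∈ normalizer (W : Set G) := le_normalizer_of_normal (K := ⊤) (mem_top v)
  have hvs : v * v ∈ W := by rw [hv2]; exact W.one_mem
  obtain ⟨V, hV⟩ : ∃ V, V = W ⊔ zpowers v := ⟨_, rfl⟩
  have hV8 : Nat.card V = 8 := by rw [hV, card_sup_zpowers_eq hvn hvs hvW, c.W_card]
  have hVB : V ≤ B := hV ▸ sup_le c.WB (zpowers_le_of_mem hvB)
  have hVm : ∀ x, x ∈ V ↔ x ∈ W ∨ v⁻¹ * x ∈ W := fun x => by
    rw [hV, mem_sup_zpowers hvn hvs, c.normal.mem_comm_iff]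
  have hVsq : ∀ x ∈ V, x * x = 1 := fun x hx => by
    rcases (hVm x).1 hx with h1 | h1
    · exact c.W_sq h1
    · have := c.W_sq h1
      rwa [(c.commNB (c.BN (hVB hx)) hvB).inv_right.mul_mul_mul_comm, ← mul_inv_rev, hv2, inv_one,
        one_mul] at this
  by_cases hVN : N ≤ V
  · refine sr_of_normal_four hG c.four (hV ▸ le_sup_left) hVsq hV8 ?_
    exact ((centralizer_le (c.BN.trans hVN)).trans c.hN.ge).trans hVN
  have hlt := H9.mul_card_le_of_lt (p := 2) (hG.to_subgroup N)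
    (lt_of_le_of_ne (hVB.trans c.BN) fun h1 => hVN h1.ge)
  have hVi : V.relIndex N = 2 := by
    have := card_eq_relIndex_mul_of_le (hVB.trans c.BN)
    rw [hV8] at this hlt; omega
  have hNc : ∀ x ∈ N, ∀ y ∈ N, x * y = y * x := fun x hx y hy =>
    H9.mul_comm_of_relIndex_dvd_prime (p := 2) (hVB.trans c.BN)
      (fun k hk g hg => (c.commNB hg (hVB hk)).symm.eq) hVi.dvd hx hy
  have hAW' : A = W := eq_of_le_of_card_ge hAW (by
    have h1 := c.cardN hG
    rw [← hA] at h1; rw [c.W_card]; omega)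
  have hI : ∀ x ∈ N, a0 * x * a0⁻¹ = x⁻¹ → x ∈ W := fun x hx hi => by
    have e := commutator_eq_sq_of_inverts hi
    have h1 : x * x = 1 → x ∈ W := fun h1 =>
      c.cen_a0 hx (commutatorElement_eq_one_iff_mul_comm.1 (e.trans h1))
    by_cases hxV : x ∈ V
    · exact h1 (hVsq x hxV)
    have h2 : ∀ g, g * (x * x) = x * x * g := fun g => by
      have hy : g * x * g⁻¹ ∈ N := Normal.conj_mem inferInstance _ hx g
      have h3 : g * (x * x) * g⁻¹ = (g * x * g⁻¹) * (g * x * g⁻¹) := by group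
      rw [← mul_inv_eq_iff_eq_mul, h3]
      by_cases hyV : g * x * g⁻¹ ∈ V
      · have h4 := hVsq _ hyV
        have h5 : x * x = 1 := by rw [← h3] at h4; simpa using h4
        rw [h4, h5]
      · have h4 := hVsq _ (H9.inv_mul_mem_of_relIndex_two hVi hx hy hxV hyV)
        rw [(show Commute (g * x * g⁻¹) x⁻¹ from hNc _ hy _ (N.inv_mem hx)).mul_mul_mul_comm,
          ← mul_inv_rev, inv_mul_eq_one] at h4
        exact h4.symm
    rcases (mem_zpowers_two c.z2).1 (c.center_mem h2) with h3 | h3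
    · exact h1 h3
    · exact (hxV ((hVm x).2 (Or.inr (hfib x hx (e.trans h3))))).elim
  have hcen : ∀ g : G, ⁅g, a0⁆ ∈ N := by
    obtain ⟨y, -, hyN, -, hyc⟩ := H9.exists_mem_commutator_mem_of_lt (p := 2) (K := N) (N := ⊤)
      (P := ⊤) (hG.to_subgroup _) le_top le_normalizer_of_normal le_normalizer_of_normal
      (lt_top_iff_ne_top.2 fun h1 => c.a0N (h1 ▸ mem_top a0))
    have h1 := hI _ (H9.commutator_mem_comm (hyc a0 (mem_top _))) (inverts_commutator c.a02)
    obtain ⟨n, hn, e⟩ := c.usurj hG (hA ▸ hAW'.ge h1)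
    have hp0 := commute_of_commutator_eq e.symm
    have hpN : n⁻¹ * y ∉ N := fun h2 => hyN ((N.mul_mem_cancel_left (N.inv_mem hn)).1 h2)
    have hpc : ∀ x, ⁅n⁻¹ * y, x⁆ ∈ N := fun x => by
      rw [commutator_mul_left']
      exact N.mul_mem (Normal.conj_mem inferInstance _
        (H9.commutator_mem_comm (hyc x (mem_top _))) _) (commutator_mem_normal_left (N.inv_mem hn) x)
    generalize n⁻¹ * y = p at hp0 hpN hpc
    have hpT : p ∈ centralizer (W : Set G) := by
      by_contra hpT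
      have h2 : p * a⁻¹ ∈ centralizer (W : Set G) :=
        (mul_mem_iff_of_index_two (c.T_index hG)).2 (by rw [inv_mem_iff]; have := c.aT; tauto)
      have h3 : Commute (p * a⁻¹) a0 :=
        (show Commute p a0 from hp0).mul_left (show Commute a a0 from c.a0a.symm).inv_left
      have h4 := hpc h
      rw [← inv_mul_cancel_right p a, commutator_mul_left', commutatorElement_eq_one_iff_commute.2
        (c.commP h2 h3 c.hT c.ha0), mul_one, ← commutatorElement_inv, c.ha, h3.inv_right.eq,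
        mul_inv_cancel_right, inv_mem_iff] at h4
      exact c.a0N h4
    rcases c.P_cases hpT hp0 with h2 | ⟨b, hb, rfl⟩
    · rcases c.B_cases h2 with h3 | ⟨x, hx, rfl⟩
      · exact (hpN (c.WN h3)).elim
      · intro g
        have h3 := hpc g
        rw [commutator_mul_left'] at h3
        have h4 := (N.mul_mem_cancel_right (commutator_mem_normal_left (c.WN hx) g)).1 h3
        refine H9.commutator_mem_comm ?_
        simpa [mul_assoc] using c.N_normal.conj_mem _ h4 x⁻¹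
    · have h2 := hpc a
      rcases c.comm_Bh_a hb with h3 | h3 <;> rw [h3] at h2
      · exact (c.a0N h2).elim
      · exact (c.a0N ((N.mul_mem_cancel_left (c.WN c.zW)).1 h2)).elim
  have hNi : N.index ≤ 8 := by
    have h2 := relIndex_centralizer_le (H := ⊤) (N := W) (x := a0)
      fun g _ => hI _ (hcen g) (inverts_commutator c.a02)
    rw [relIndex_top_right, c.W_card] at h2
    have h3 := (centralizer ({a0} : Set G)).index_mul_card
    have h4 := N.index_mul_card
    rw [c.card] at h3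
    rw [show Nat.card N = 16 by omega] at h4
    omega
  intro K L _ hs
  by_contra hlt
  have h32 : 2 ^ (4 + 1) ≤ L.relIndex K :=
    two_pow_ge_of_gt (relIndex_two_pow hG L K) (not_le.1 hlt)
  have hsp := relIndex_split_normal hs.le N
  have hi1 : _ ≤ 2 ^ 2 := c.sr_quot hG (k := 2) hNi _ _ le_top (hs.map (QuotientGroup.mk' N))
  have hXi := index_sup_mul_card_map K N
  have hi1' := relIndex_le_card (L.map (QuotientGroup.mk' N)) (K.map (QuotientGroup.mk' N))
  have hi0 := (relIndex_le_card (L ⊓ N) (K ⊓ N)).trans (H9.card_le_of_le' inf_le_right)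
  by_cases h4 : 4 ≤ (L.map (QuotientGroup.mk' N)).relIndex (K.map (QuotientGroup.mk' N))
  · have h5 : (K ⊔ N).index ≤ 2 := by
      have : (K ⊔ N).index * 4 ≤ N.index := hXi ▸ Nat.mul_le_mul_left _ (by omega)
      omega
    obtain ⟨n, hn, k, hk, e⟩ := H2.exists_mul_of_mem_sup' (H := K) (N := N) (x := a0)
      le_normalizer_of_normal (by
        rw [sup_comm, ← c.ha]; exact commutator_mem_of_index_le_two h5 _ _)
    have h6 := c.relIndex_le_of_k0 hG hs (N.inv_mem hn) (by rw [e]; simpa using hk)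
    have := Nat.mul_le_mul h6 hi1
    omega
  · have h5 : (L.map (QuotientGroup.mk' N)).relIndex (K.map (QuotientGroup.mk' N)) ≤ 2 ^ 1 :=
      two_pow_le_of_lt (relIndex_two_pow (hG.to_quotient N) _ _) (not_le.1 h4)
    have h6 : 16 ≤ (L ⊓ N).relIndex (K ⊓ N) := by
      by_contra h6
      have : _ ≤ 15 * 2 ^ 1 := Nat.mul_le_mul (show (L ⊓ N).relIndex (K ⊓ N) ≤ 15 by omega) h5
      omega
    obtain ⟨h7, h8⟩ := (hs.inf N).eq_of_card_le inf_le_right (by omega)
    have h9 : K ≤ N := fun k hk => by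
      rw [c.hN]
      refine mem_centralizer_iff.2 fun b hb => ?_
      have h1 : ⁅b, k⁆ ∈ L ⊓ N :=
        ⟨hs.comm_mem (h7.ge (c.BN hb)).1 hk, commutator_mem_normal_left (c.BN hb) k⟩
      rwa [h8, mem_bot, commutatorElement_eq_one_iff_mul_comm] at h1
    have h3 : K.map (QuotientGroup.mk' N) = ⊥ := by
      rwa [Subgroup.map_eq_bot_iff, QuotientGroup.ker_mk']
    rw [h3, relIndex_bot_right] at hsp
    omega

end C3

end Cfsg.Agent.H6
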