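import Cfsg.Agent.Lib.H6.SecD

/-! Harada's four generator theorem: the case `a0 ∉ N`, rank two; the theorem (helper6). -/

set_option autoImplicit false
set_option linter.style.haveILetI false
open Cfsg Subgroup
open scoped Pointwise commutatorElement

namespace Cfsg.Agent.H6

variable {G : Type*} [Group G]

theorem sec_Phi (A : Subgroup G) : Sec A (H9.Phi 2 A) :=
  ⟨H9.Phi_le A, H9.le_normalizer_Phi A, fun x hx => by rw [← pow_two]; exact H9.pow_mem_Phi hx⟩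

theorem cyc_comm [Finite G] (hG : IsPGroup 2 G) {A : Subgroup G} [hA : A.Normal]
    (hc : ∀ a ∈ A, ∀ b ∈ A, a * b = b * a) (h4 : (H9.Phi 2 A).relIndex A ≤ 4) {e s x w : G}
    (hx : x ∈ A) (hex : ⁅e, x⁆ ∉ H9.Phi 2 A) (hes : ∀ b ∈ A, Commute ⁅e, s⁆ b) (hw : w ∈ A)
    (hw2 : w * w = 1) (hew : Commute e w) : Commute s w := by
  haveI := Phi_normal A
  have hx' : e * x * e⁻¹ ∈ A := hA.conj_mem _ hx e
  have h1 : x ∉ H9.Phi 2 A := fun h => hex (commutator_mem_normal_right h e)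
  have h2 : e * x * e⁻¹ ∉ H9.Phi 2 A := fun h => h1 (by
    simpa [mul_assoc] using Normal.conj_mem inferInstance _ h e⁻¹)
  have hgen : zpowers x ⊔ zpowers (e * x * e⁻¹) = A := by
    refine H9.eq_of_le_sup_Phi (hG.to_subgroup A)
      (sup_le (zpowers_le_of_mem hx) (zpowers_le_of_mem hx')) fun b hb => ?_
    have m1 : x ∈ zpowers x ⊔ zpowers (e * x * e⁻¹) ⊔ H9.Phi 2 A :=
      mem_sup_left (mem_sup_left (mem_zpowers _))
    have m2 : e * x * e⁻¹ ∈ zpowers x ⊔ zpowers (e * x * e⁻¹) ⊔ H9.Phi 2 A :=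
      mem_sup_left (mem_sup_right (mem_zpowers _))
    rcases (sec_Phi A).four_cases h4 hx hx' h1 h2 hex hb with h | h | h | h
    · exact mem_sup_right h
    · simpa using mul_mem (mem_sup_right h) m1
    · simpa only [inv_mul_cancel_right] using mul_mem (mem_sup_right h) m2
    · simpa only [inv_mul_cancel_right] using mul_mem (mul_mem (mem_sup_right h) m1) m2
  obtain ⟨i, j, hij⟩ := (mem_zpowers_sup (show Commute x (e * x * e⁻¹) from hc _ hx _ hx')).1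
    (hgen.ge (hA.conj_mem _ hx s))
  let H : Subgroup G :=
    { carrier := {b | b ∈ A ∧ s * b * s⁻¹ = b ^ i * (e * b * e⁻¹) ^ j}
      one_mem' := ⟨A.one_mem, by simp⟩
      mul_mem' := fun {b c} hb hc' => ⟨A.mul_mem hb.1 hc'.1, by
        have c1 : Commute b c := hc _ hb.1 _ hc'.1
        have c2 : Commute (e * b * e⁻¹) (e * c * e⁻¹) := commute_conj_iff.2 c1
        have c3 : Commute (e * b * e⁻¹) c := hc _ (hA.conj_mem _ hb.1 e) _ hc'.1
        rw [show s * (b * c) * s⁻¹ = s * b * s⁻¹ * (s * c * s⁻¹) by group,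
          show e * (b * c) * e⁻¹ = e * b * e⁻¹ * (e * c * e⁻¹) by group, hb.2, hc'.2, c1.mul_zpow,
          c2.mul_zpow, (c3.zpow_zpow j i).mul_mul_mul_comm]⟩
      inv_mem' := fun {b} hb => ⟨A.inv_mem hb.1, by
        have c3 : Commute (e * b * e⁻¹) b := hc _ (hA.conj_mem _ hb.1 e) _ hb.1
        rw [show s * b⁻¹ * s⁻¹ = (s * b * s⁻¹)⁻¹ by group,
          show e * b⁻¹ * e⁻¹ = (e * b * e⁻¹)⁻¹ by group, hb.2, ← (c3.zpow_zpow j i).eq,
          mul_inv_rev, inv_zpow, inv_zpow]⟩ }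
  have hAH : A ≤ H := by
    rw [← hgen]
    refine sup_le (zpowers_le_of_mem ⟨hx, hij⟩) (zpowers_le_of_mem ⟨hx', ?_⟩)
    have h3 := (hes _ (hA.conj_mem _ (hA.conj_mem _ hx e) s)).eq
    calc s * (e * x * e⁻¹) * s⁻¹ = ⁅e, s⁆ * (s * (e * x * e⁻¹) * s⁻¹) * ⁅e, s⁆⁻¹ := by
          rw [h3, mul_inv_cancel_right]
      _ = e * (s * x * s⁻¹) * e⁻¹ := by simp only [commutatorElement_def]; group
      _ = _ := by
          rw [hij, conj_zpow (a := e) (b := e * x * e⁻¹)]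
          generalize (e * x * e⁻¹) ^ j = u
          rw [conj_zpow]; group
  have h5 := (hAH hw).2
  rw [hew.eq, mul_inv_cancel_right, ← zpow_add] at h5
  rcases (mem_zpowers_two hw2).1 (zpow_mem (mem_zpowers w) (i + j)) with h6 | h6 <;> rw [h6] at h5
  · rw [show w = 1 by simpa using h5]; exact Commute.one_right s
  · exact commute_iff_conj_eq.2 h5

theorem card_Phi_mul_le [Finite G] {A W : Subgroup G} (hc : ∀ a ∈ A, ∀ b ∈ A, a * b = b * a)
    (hWA : W ≤ A) (hW : ∀ w ∈ W, w * w = 1) :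
    Nat.card (H9.Phi 2 A) ≤ W.relIndex A := by
  classical
  let φ : A ⧸ W.subgroupOf A → H9.Phi 2 A := fun q => ⟨q.out * q.out, (sec_Phi A).sq _ q.out.2⟩
  refine Nat.card_le_card_of_surjective φ fun ⟨y, hy⟩ => ?_
  obtain ⟨b, hb, rfl⟩ := (mem_Phi_iff_of_comm hc).1 hy
  refine ⟨QuotientGroup.mk ⟨b, hb⟩, Subtype.ext ?_⟩
  obtain ⟨v, hv⟩ := QuotientGroup.mk_out_eq_mul (W.subgroupOf A) ⟨b, hb⟩
  change ((QuotientGroup.mk ⟨b, hb⟩ : A ⧸ W.subgroupOf A).out : G) * _ = b * b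
  rw [hv]
  change b * (v : A) * (b * (v : A)) = b * b
  rw [(show Commute ((v : A) : G) b from hc _ (v : A).2 _ hb).mul_mul_mul_comm,
    hW ((v : A) : G) v.2, mul_one]

namespace C3

open C2

variable {W B N : Subgroup G} {z w a a0 h : G} [Finite G]

theorem comm_T_B (c : C3 W B N z w a a0 h) (hV : ∀ v ∈ N, v * v = 1 → v ∈ W) {t b : G}
    (ht : t ∈ centralizer (W : Set G)) (hb : b ∈ B) : ⁅t, b⁆ ∈ W := by
  haveI := c.alp.normal
  refine hV _ (c.BN (commutator_mem_normal_right hb t)) ?_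
  have h1 := commW ht (hV _ (c.BN (B.mul_mem hb hb)) (c.alp.four b hb))
  rw [commutatorElement_def, (show Commute b⁻¹ (t * b * t⁻¹) from c.alp.comm _ (B.inv_mem hb) _
    (Normal.conj_mem inferInstance _ hb t)).mul_mul_mul_comm]
  calc t * b * t⁻¹ * (t * b * t⁻¹) * (b⁻¹ * b⁻¹) = t * (b * b) * t⁻¹ * (b * b)⁻¹ := by group
    _ = 1 := by rw [h1.eq]; group

theorem secT (c : C3 W B N z w a a0 h) (hV : ∀ v ∈ N, v * v = 1 → v ∈ W) :
    Sec (centralizer (W : Set G)) N := by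
  haveI := c.N_normal
  refine ⟨c.NT, le_normalizer_of_normal, fun t ht => ?_⟩
  rw [c.hN]
  refine mem_centralizer_iff.2 fun b hb => ?_
  have h1 := c.comm_T_B hV ht hb
  rw [eq_comm, ← commutatorElement_eq_one_iff_mul_comm, commutator_mul_left', (commW ht h1).eq,
    mul_inv_cancel_right, c.W_sq h1]

theorem mem_W_of_sq (c : C3 W B N z w a a0 h) (hV : ∀ v ∈ N, v * v = 1 → v ∈ W) {x y : G}
    (hx : x ∈ B) (hy : y ∈ B) (e : x * x = y * y) : x⁻¹ * y ∈ W :=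
  sq_fibre_of_comm c.alp.comm (fun _ ha => hV _ (c.BN ha)) x hx y hy e

theorem mem_N_of_gen (c : C3 W B N z w a a0 h) {x y t : G} (ht : t ∈ centralizer (W : Set G))
    (hgen : ∀ b ∈ B, b ∈ W ∨ x⁻¹ * b ∈ W ∨ y⁻¹ * b ∈ W ∨ (x * y)⁻¹ * b ∈ W)
    (hx : Commute t x) (hy : Commute t y) : t ∈ N := by
  rw [c.hN]
  refine mem_centralizer_iff.2 fun b hb => Commute.eq (Commute.symm ?_)
  rcases hgen b hb with h1 | h1 | h1 | h1
  · exact commW ht h1
  · simpa using hx.mul_right (commW ht h1)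
  · simpa using hy.mul_right (commW ht h1)
  · simpa only [mul_inv_cancel_left] using (hx.mul_right hy).mul_right (commW ht h1)

theorem exists_gen (c : C3 W B N z w a a0 h) (hV : ∀ v ∈ N, v * v = 1 → v ∈ W)
    (h4 : ¬ N.relIndex (centralizer (W : Set G)) ≤ 4) : ∃ x ∈ B, x * x ∉ zpowers z := by
  by_contra hall
  push Not at hall
  obtain ⟨x, hx, hgen⟩ : ∃ x ∈ B, ∀ b ∈ B, b ∈ W ∨ x⁻¹ * b ∈ W := by
    by_cases h1 : ∃ x ∈ B, x * x = z
    · obtain ⟨x, hx, e⟩ := h1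
      refine ⟨x, hx, fun b hb => ((mem_zpowers_two c.z2).1 (hall b hb)).imp
        (hV b (c.BN hb)) fun h2 => c.mem_W_of_sq hV hx hb (e.trans h2.symm)⟩
    · push Not at h1
      exact ⟨1, B.one_mem, fun b hb => Or.inl (hV b (c.BN hb)
        (((mem_zpowers_two c.z2).1 (hall b hb)).resolve_right (h1 b hb)))⟩
  refine h4 ?_
  rw [← c.W_card]
  refine (card_le_mul_of_fibres (fun t => ⁅t, x⁆) (fun t ht => c.comm_T_B hV ht hx)
    fun s hs t ht e => ?_).1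
  have h1 : Commute (s⁻¹ * t) x := commute_of_commutator_eq e.symm
  exact c.mem_N_of_gen (mul_mem (inv_mem hs) ht) (x := x) (y := x)
    (fun b hb => (hgen b hb).imp id Or.inl) h1 h1

theorem gen_cases (c : C3 W B N z w a a0 h) (hV : ∀ v ∈ N, v * v = 1 → v ∈ W) {x : G}
    (hx : x ∈ B) (hxz : x * x ∉ zpowers z) : x * (a * x * a⁻¹) * (x * (a * x * a⁻¹)) = z ∧
    ∀ b ∈ B, b ∈ W ∨ x⁻¹ * b ∈ W ∨ (a * x * a⁻¹)⁻¹ * b ∈ W ∨ (x * (a * x * a⁻¹))⁻¹ * b ∈ W := by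
  have hx' := c.alp.normal.conj_mem _ hx a
  have h1 : x * x ≠ 1 := fun h => hxz (h ▸ one_mem _)
  have h2 : x * x ≠ z := fun h => hxz (h ▸ mem_zpowers z)
  have h3 : x * x ∈ W := hV _ (c.BN (B.mul_mem hx hx)) (c.alp.four x hx)
  have h4 := c.mul_conj h3 h1 h2
  have h5 : x * (a * x * a⁻¹) * (x * (a * x * a⁻¹)) = z := by
    rw [(show Commute (a * x * a⁻¹) x from c.alp.comm _ hx' _ hx).mul_mul_mul_comm, ← h4]; group
  refine ⟨h5, fun b hb => ?_⟩
  rcases (mem_four_iff c.four c.zW h3 c.z1 h1 h2.symm).1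
    (hV _ (c.BN (B.mul_mem hb hb)) (c.alp.four b hb)) with h6 | h6 | h6 | h6
  · exact Or.inl (hV b (c.BN hb) h6)
  · exact Or.inr (Or.inr (Or.inr (c.mem_W_of_sq hV (B.mul_mem hx hx') hb (h5.trans h6.symm))))
  · exact Or.inr (Or.inl (c.mem_W_of_sq hV hx hb h6.symm))
  · refine Or.inr (Or.inr (Or.inl (c.mem_W_of_sq hV hx' hb ?_)))
    rw [h6, ← c.zc, ← h4, ← mul_assoc (x * x) (x * x), c.W_sq h3]; group

theorem W_le_A (c : C3 W B N z w a a0 h) (hV : ∀ v ∈ N, v * v = 1 → v ∈ W) {x : G}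
    (hx : x ∈ B) (hxz : x * x ∉ zpowers z) : W ≤ ⁅N ⊔ zpowers a0, N ⊔ zpowers a0⁆ := by
  have hx' := c.alp.normal.conj_mem _ hx a
  have hu : ∀ b ∈ B, ⁅b, a0⁆ ∈ ⁅N ⊔ zpowers a0, N ⊔ zpowers a0⁆ := fun b hb =>
    commutator_mem_commutator (mem_sup_left (c.BN hb)) (a0Y N a0)
  have h1 : ⁅x, a0⁆ ∈ W := H9.commutator_mem_comm (c.comm_T_B hV c.a0T hx)
  have e : ⁅a * x * a⁻¹, a0⁆ = a * ⁅x, a0⁆ * a⁻¹ := by
    rw [conjugate_commutatorElement, ← c.a0a, mul_inv_cancel_right]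
  have h4 := c.normal.conj_mem _ h1 a
  have e2 : ⁅x * (a * x * a⁻¹), a0⁆ = ⁅x, a0⁆ * (a * ⁅x, a0⁆ * a⁻¹) := by
    rw [commutator_mul_left', e, (commW (c.NT (c.BN hx)) h4).eq, mul_inv_cancel_right,
      (commW (c.W_le h4) h1).eq]
  have h2 : ⁅x, a0⁆ ∉ zpowers z := fun h2 => by
    have h3 : ⁅x * (a * x * a⁻¹), a0⁆ = 1 := by
      rw [e2]
      rcases (mem_zpowers_two c.z2).1 h2 with h3 | h3 <;> rw [h3]
      · simp
      · rw [c.zc a, mul_inv_cancel_right, c.z2]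
    have h5 := c.W_sq (c.cen_a0 (c.BN (B.mul_mem hx hx'))
      (commutatorElement_eq_one_iff_mul_comm.1 h3))
    exact c.z1 ((c.gen_cases hV hx hxz).1.symm.trans h5)
  have h3 : ⁅x, a0⁆ ≠ 1 := fun h => h2 (h ▸ one_mem _)
  have h5 : ⁅x, a0⁆ ≠ z := fun h => h2 (h ▸ mem_zpowers z)
  rw [eq_closure_pair_of_isKleinFour c.four c.zW h1 c.z1 h3 h5.symm]
  refine closure_pair_le ?_ (hu x hx)
  rw [← c.mul_conj h1 h3 h5, ← e2]
  exact hu _ (B.mul_mem hx hx')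

theorem card_D (c : C3 W B N z w a a0 h) (hV : ∀ v ∈ N, v * v = 1 → v ∈ W) {x : G}
    (hx : x ∈ B) (hxz : x * x ∉ zpowers z) [N.Normal] :
    Nat.card ((centralizer (W : Set G)).map (QuotientGroup.mk' N) ⊓
      centralizer {QuotientGroup.mk' N a} : Subgroup (G ⧸ N)) ≤ 4 := by
  let D := centralizer (W : Set G) ⊓ H9.cmod N a
  have h1 : N.relIndex D ≤ 4 := by
    rw [← c.W_card]
    refine (card_le_mul_of_fibres (K := D) (fun t => ⁅t, x⁆)
      (fun t ht => c.comm_T_B hV ht.1 hx) fun s hs t ht e => ?_).1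
    have h1 : Commute (s⁻¹ * t) x := commute_of_commutator_eq e.symm
    have h2 := D.mul_mem (D.inv_mem hs) ht
    refine c.mem_N_of_gen h2.1 (c.gen_cases hV hx hxz).2 h1 ?_
    have h3 := (c.commNB (H9.commutator_mem_comm h2.2.2) hx).mul_left h1
    have h4 := (commute_conj_iff (g := a)).2 h3
    have hai := inv_eq_of_mul_self c.a2
    have e : a * (⁅a, s⁻¹ * t⁆ * (s⁻¹ * t)) * a⁻¹ = s⁻¹ * t := by
      rw [commutatorElement_def, inv_mul_cancel_right, hai, ← mul_assoc, ← mul_assoc, c.a2,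
        mul_assoc, mul_assoc, c.a2]; simp
    rwa [e] at h4
  have h2 := relIndex_ker D (QuotientGroup.mk' N)
  rw [QuotientGroup.ker_mk'] at h2
  refine (H9.card_le_of_le' ?_).trans (h2 ▸ h1)
  rintro _ ⟨⟨t, ht, rfl⟩, h3⟩
  refine ⟨t, ⟨ht, le_normalizer_of_normal (K := ⊤) (mem_top t), ?_⟩, rfl⟩
  rw [← QuotientGroup.eq_one_iff, ← QuotientGroup.mk'_apply, map_commutatorElement,
    commutatorElement_eq_one_iff_mul_comm]
  exact mem_centralizer_singleton_iff.1 h3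

theorem comm_a0_mem (hG : IsPGroup 2 G) (c : C3 W B N z w a a0 h)
    (hV : ∀ v ∈ N, v * v = 1 → v ∈ W) (g : G) : ⁅g, a0⁆ ∈ N := by
  by_cases hg : g ∈ centralizer (W : Set G)
  · exact (c.secT hV).comm_mem hg c.a0T
  · have h1 : g * a ∈ centralizer (W : Set G) :=
      (mul_mem_iff_of_index_two (c.T_index hG)).2 (by have := c.aT; tauto)
    have := (c.secT hV).comm_mem h1 c.a0T
    rwa [commutator_mul_left', commutatorElement_eq_one_iff_mul_comm.2 c.a0a.symm, mul_one,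
      mul_inv_cancel, one_mul] at this

theorem comm_Yh (hG : IsPGroup 2 G) (c : C3 W B N z w a a0 h)
    (hV : ∀ v ∈ N, v * v = 1 → v ∈ W) {y s : G} (hy : y ∈ N ⊔ zpowers a0)
    (hs : s ∉ centralizer (W : Set G)) : ⁅y, s⁆ ∈ N ∧ ⁅y * h, s⁆ * a0 ∈ N := by
  haveI := c.N_normal
  have h1 : ⁅y, s⁆ ∈ N := by
    rcases c.Y_cases hy with h1 | ⟨x, hx, rfl⟩
    · exact commutator_mem_normal_left h1 s
    · rw [commutator_mul_left']
      exact N.mul_mem (Normal.conj_mem inferInstance _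
        (H9.commutator_mem_comm (c.comm_a0_mem hG hV s)) x) (commutator_mem_normal_left hx s)
  refine ⟨h1, ?_⟩
  have h2 : s * a⁻¹ ∈ centralizer (W : Set G) :=
    (mul_mem_iff_of_index_two (c.T_index hG)).2 (by rw [inv_mem_iff]; have := c.aT; tauto)
  have h3 := (c.secT hV).comm_mem c.hT h2
  have e : ⁅y * h, s⁆ * a0 = y * ⁅h, s * a⁻¹⁆ * y⁻¹ * ⁅y * (s * a⁻¹), a0⁆ *
      (a0 * ⁅y, s⁆ * a0⁻¹) * (a0 * a0) := by
    have e1 : ⁅h, s⁆ = ⁅h, s * a⁻¹⁆ * (s * a⁻¹ * a0 * (s * a⁻¹)⁻¹) := by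
      rw [← c.ha, ← commutator_mul_right', inv_mul_cancel_right]
    rw [commutator_mul_left', e1]
    simp only [commutatorElement_def]; group
  rw [e, c.a02, mul_one]
  exact N.mul_mem (N.mul_mem (Normal.conj_mem inferInstance _ h3 _) (c.comm_a0_mem hG hV _))
    (Normal.conj_mem inferInstance _ h1 _)

end C3

end Cfsg.Agent.H6
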