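import Cfsg.Agent.Lib.H6.SecE

/-! Harada's four generator theorem: the last case and the theorem (helper6). -/

set_option autoImplicit false
set_option linter.style.haveILetI false
open Cfsg Subgroup
open scoped Pointwise commutatorElement

namespace Cfsg.Agent.H6

variable {G : Type*} [Group G]

/-- The last configuration. -/
structure C4 (W B N A R : Subgroup G) (z w a a0 h : G) : Prop extends C3 W B N z w a a0 h where
  pg : IsPGroup 2 G
  hV : ∀ v ∈ N, v * v = 1 → v ∈ W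
  hA : A = ⁅N ⊔ zpowers a0, N ⊔ zpowers a0⁆
  hR : R = centralizer (W : Set G) ⊓ H9.cmod A a0
  WA : W ≤ A
  big : ¬ N.relIndex (centralizer (W : Set G)) ≤ 4

namespace C4

open C2 C3

variable {W B N A R : Subgroup G} {z w a a0 h : G} [Finite G]

theorem Y_normal (c : C4 W B N A R z w a a0 h) : (N ⊔ zpowers a0).Normal :=
  normalizer_eq_top_iff.1 (top_le_iff.1 fun g _ =>
    (c.mem_normalizer_A (c.comm_a0_mem c.pg c.hV g)).1)

theorem A_normal (c : C4 W B N A R z w a a0 h) : A.Normal := by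
  haveI := c.Y_normal; rw [c.hA]; infer_instance

theorem A_le (c : C4 W B N A R z w a a0 h) : A ≤ N := c.hA ▸ c.AN c.pg

theorem A_comm (c : C4 W B N A R z w a a0 h) : ∀ x ∈ A, ∀ y ∈ A, x * y = y * x :=
  fun _ hx _ hy => (c.lp c.pg).comm (c.hA ▸ hx) (c.hA ▸ hy)

theorem comm_Y (c : C4 W B N A R z w a a0 h) {x y : G} (hx : x ∈ N ⊔ zpowers a0)
    (hy : y ∈ N ⊔ zpowers a0) : ⁅x, y⁆ ∈ A := c.hA ▸ commutator_mem_commutator hx hy

theorem relIndex_A (c : C4 W B N A R z w a a0 h) : A.relIndex N = 4 := by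
  have h1 := c.cardN c.pg
  rw [← c.hA, card_eq_relIndex_mul_of_le c.A_le] at h1
  exact Nat.eq_of_mul_eq_mul_right Nat.card_pos h1

theorem memR (c : C4 W B N A R z w a a0 h) {t : G} :
    t ∈ R ↔ t ∈ centralizer (W : Set G) ∧ ⁅t, a0⁆ ∈ A := by
  haveI := c.A_normal
  rw [c.hR]
  exact ⟨fun h => ⟨h.1, h.2.2⟩, fun h => ⟨h.1, le_normalizer_of_normal (K := ⊤) (mem_top t), h.2⟩⟩

theorem RT (c : C4 W B N A R z w a a0 h) : R ≤ centralizer (W : Set G) := fun _ h => (c.memR.1 h).1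

theorem YR (c : C4 W B N A R z w a a0 h) : N ⊔ zpowers a0 ≤ R := fun _ hy =>
  c.memR.2 ⟨c.YT hy, c.comm_Y hy (a0Y N a0)⟩

theorem NR (c : C4 W B N A R z w a a0 h) : N ≤ R := le_sup_left.trans c.YR

theorem hR' (c : C4 W B N A R z w a a0 h) : h ∈ R := c.memR.2 ⟨c.hT, by
  rw [commutatorElement_eq_one_iff_mul_comm.2 c.ha0]; exact A.one_mem⟩

theorem hY (c : C4 W B N A R z w a a0 h) : h ∉ N ⊔ zpowers a0 := fun hy =>
  c.a0N (c.ha ▸ (c.comm_Yh c.pg c.hV hy c.aT).1)

theorem R_cases (c : C4 W B N A R z w a a0 h) {r : G} (hr : r ∈ R) :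
    r ∈ N ⊔ zpowers a0 ∨ ∃ y ∈ N ⊔ zpowers a0, r = y * h := by
  obtain ⟨n, hn, e⟩ := c.usurj c.pg (c.hA ▸ (c.memR.1 hr).2)
  have hB : W ⊔ zpowers a0 ≤ N ⊔ zpowers a0 := sup_le_sup_right c.WN _
  rcases c.P_cases (mul_mem (inv_mem (c.NT hn)) (c.RT hr)) (commute_of_commutator_eq e.symm) with
    h1 | ⟨b, hb, h1⟩
  · left; simpa using mul_mem (mem_sup_left hn) (hB h1)
  · exact Or.inr ⟨n * b, mul_mem (mem_sup_left hn) (hB hb), by rw [mul_assoc, ← h1]; group⟩

theorem relIndex_Y (c : C4 W B N A R z w a a0 h) : N.relIndex (N ⊔ zpowers a0) = 2 := by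
  have h1 := c.cardY
  rw [card_eq_relIndex_mul_of_le le_sup_left] at h1
  exact Nat.eq_of_mul_eq_mul_right Nat.card_pos h1

theorem relIndex_R (c : C4 W B N A R z w a a0 h) : N.relIndex R = 4 := by
  haveI := c.Y_normal
  have h1 := card_sup_zpowers_eq (H := N ⊔ zpowers a0) (s := h)
    (le_normalizer_of_normal (K := ⊤) (mem_top h))
    (mem_sup_left ((c.secT c.hV).sq h c.hT)) c.hY
  have h2 : N ⊔ zpowers a0 ⊔ zpowers h = R := by
    refine le_antisymm (sup_le c.YR (zpowers_le_of_mem c.hR')) fun r hr => ?_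
    rcases c.R_cases hr with h2 | ⟨y, hy, rfl⟩
    · exact mem_sup_left h2
    · exact mul_mem (mem_sup_left hy) (mem_sup_right (mem_zpowers h))
  rw [h2, c.cardY, card_eq_relIndex_mul_of_le c.NR, ← mul_assoc] at h1
  exact Nat.eq_of_mul_eq_mul_right Nat.card_pos h1

theorem relIndex_RT (c : C4 W B N A R z w a a0 h) : R.relIndex (centralizer (W : Set G)) = 2 ∨
    R.relIndex (centralizer (W : Set G)) = 4 := by
  haveI := c.A_normal
  have h1 : R.relIndex (centralizer (W : Set G)) ≤ 2 ^ 2 := by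
    rw [c.hR, inf_relIndex_left]
    exact (H9.relIndex_cmod_le le_normalizer_of_normal
      fun g _ => c.comm_a0_mem c.pg c.hV g).trans c.relIndex_A.le
  have h2 := relIndex_mul_relIndex _ _ _ c.NR c.RT
  have h3 := c.big
  rw [c.relIndex_R] at h2
  have := two_pow_le_or (relIndex_two_pow c.pg R (centralizer (W : Set G))) 1
  omega

theorem secR (c : C4 W B N A R z w a a0 h) : Sec (centralizer (W : Set G)) R :=
  ⟨c.RT, H9.le_normalizer_of_commutator_le c.RT ((c.secT c.hV).commutator_le.trans c.NR),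
    fun t ht => c.NR ((c.secT c.hV).sq t ht)⟩

theorem conj_a_R (c : C4 W B N A R z w a a0 h) {r : G} : a * r * a⁻¹ ∈ R ↔ r ∈ R := by
  haveI := c.normal
  have key : ∀ r ∈ R, a * r * a⁻¹ ∈ R := fun r hr => c.memR.2
    ⟨Normal.conj_mem inferInstance _ (c.RT hr) a, by
      have := c.A_normal.conj_mem _ (c.memR.1 hr).2 a
      rwa [conjugate_commutatorElement, ← c.a0a, mul_inv_cancel_right] at this⟩
  refine ⟨fun h1 => ?_, key r⟩
  have := key _ h1
  rwa [inv_eq_of_mul_self c.a2, ← mul_assoc, ← mul_assoc, c.a2, one_mul, mul_assoc,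
    c.a2, mul_one] at this

theorem comm_RY (c : C4 W B N A R z w a a0 h) {r s : G} (hr : r ∈ R) (hr' : r ∉ N ⊔ zpowers a0)
    (hs : s ∉ centralizer (W : Set G)) : ⁅r, s⁆ * a0 ∈ N := by
  obtain ⟨y, hy, rfl⟩ := (c.R_cases hr).resolve_left hr'
  exact (c.comm_Yh c.pg c.hV hy hs).2

variable [A.Normal]

theorem commute_Y (c : C4 W B N A R z w a a0 h) {x y : G} (hx : x ∈ N ⊔ zpowers a0)
    (hy : y ∈ N ⊔ zpowers a0) : Commute (QuotientGroup.mk' A x) (QuotientGroup.mk' A y) := by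
  rw [← commutatorElement_eq_one_iff_commute, ← map_commutatorElement]
  exact (QuotientGroup.eq_one_iff _).2 (c.comm_Y hx hy)

theorem c_sq (c : C4 W B N A R z w a a0 h) (t : G) :
    QuotientGroup.mk' A ⁅t, a0⁆ * QuotientGroup.mk' A ⁅t, a0⁆ = 1 := by
  have h1 := congrArg (QuotientGroup.mk' A) (inverts_commutator (x := t) c.a02)
  rw [map_mul, map_mul, map_inv, map_inv,
    (c.commute_Y (a0Y N a0) (mem_sup_left (c.comm_a0_mem c.pg c.hV t))).eq,
    mul_inv_cancel_right] at h1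
  exact mul_eq_one_iff_eq_inv.2 h1

theorem card_mapN (c : C4 W B N A R z w a a0 h) : Nat.card (N.map (QuotientGroup.mk' A)) = 4 := by
  rw [← relIndex_ker, QuotientGroup.ker_mk', c.relIndex_A]

theorem trivial_of_four (c : C4 W B N A R z w a a0 h)
    (h4 : R.relIndex (centralizer (W : Set G)) = 4) :
    (∀ x ∈ N, x * x ∈ A) ∧ ∀ t ∈ centralizer (W : Set G), ∀ x ∈ N,
      Commute (QuotientGroup.mk' A t) (QuotientGroup.mk' A x) := by
  haveI := c.N_normal
  have hsurj := (card_le_mul_of_fibres (K := centralizer (W : Set G)) (U := R)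
    (L := N.map (QuotientGroup.mk' A)) (fun t => QuotientGroup.mk' A ⁅t, a0⁆)
    (fun t _ => mem_map_of_mem _ (c.comm_a0_mem c.pg c.hV t)) (fun x hx y hy e => by
      refine c.memR.2 ⟨mul_mem (inv_mem hx) hy, ?_⟩
      have e2 : ⁅x⁻¹ * y, a0⁆ = x⁻¹ * (⁅y, a0⁆ * ⁅x, a0⁆⁻¹) * x⁻¹⁻¹ := by
        simp only [commutatorElement_def]; group
      rw [e2]
      refine Normal.conj_mem inferInstance _ ?_ _
      rw [← QuotientGroup.eq_one_iff, ← QuotientGroup.mk'_apply, map_mul, map_inv, ← e,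
        mul_inv_cancel])).2 (by rw [c.card_mapN, h4])
  refine ⟨fun x hx => ?_, fun t ht x hx => ?_⟩
  · obtain ⟨t, -, e⟩ := hsurj _ (mem_map_of_mem _ hx)
    rw [← QuotientGroup.eq_one_iff, ← QuotientGroup.mk'_apply, map_mul, ← e]
    exact c.c_sq t
  · obtain ⟨k, hk, e⟩ := hsurj _ (mem_map_of_mem _ hx)
    rw [← e]
    refine commute_iff_conj_eq.2 (crossed_trivial (QuotientGroup.mk' A) c.secR h4.le
      (fun g hg => ?_) (fun g _ => c.c_sq g) (fun g _ k _ => ?_) ht hk)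
    · rw [c.memR, QuotientGroup.mk'_apply, QuotientGroup.eq_one_iff]; tauto
    · obtain ⟨x, hx, e⟩ := hsurj _ (mem_map_of_mem (QuotientGroup.mk' A)
        (Normal.conj_mem inferInstance _ (c.comm_a0_mem c.pg c.hV k) g))
      exact ⟨x, hx, by rw [e, map_mul, map_mul, map_inv]⟩

theorem step1 (c : C4 W B N A R z w a a0 h) {K L : Subgroup G} (hs : Sec K L)
    (h32 : 32 ≤ L.relIndex K) (hKT : K ≤ centralizer (W : Set G)) (ha0 : a0 ∉ K ⊔ N) : False := by
  haveI := c.N_normal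
  haveI := c.normal
  have hsp := relIndex_split_normal hs.le N
  have hsq := (hs.inf N).relIndex_le_of_sq (U := W) fun x hx y hy e =>
    c.alp.sq_fibre' c.pg (fun b hb => c.hV b (c.BN hb)) x (c.hN ▸ hx.2) y (c.hN ▸ hy.2) e
  rw [c.W_card] at hsq
  have hXi := index_sup_mul_card_map K N
  have hi1 := relIndex_le_card (L.map (QuotientGroup.mk' N)) (K.map (QuotientGroup.mk' N))
  have hXT : K ⊔ N ≤ centralizer (W : Set G) := sup_le hKT c.NT
  have h1 := relIndex_mul_index hXT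
  have h2 := relIndex_mul_index c.NT
  have h3 := relIndex_mul_relIndex _ _ _ c.NR c.RT
  have h4 := relIndex_mul_index c.RT
  rw [c.T_index c.pg] at h1 h2 h4
  rw [c.relIndex_R] at h3
  have h5 : (K ⊔ N).relIndex (centralizer (W : Set G)) ≠ 1 := fun h5 =>
    ha0 (relIndex_eq_one.1 h5 c.a0T)
  have h6 : 0 < (K ⊔ N).relIndex (centralizer (W : Set G)) := H9.relIndex_pos
  have h8 : 8 ≤ (L.map (QuotientGroup.mk' N)).relIndex (K.map (QuotientGroup.mk' N)) := by
    by_contra h8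
    have : _ ≤ 4 * 7 := Nat.mul_le_mul hsq.1 (Nat.le_of_lt_succ (not_le.1 h8))
    omega
  have h9 : (K ⊔ N).index * 8 ≤ N.index := hXi ▸ Nat.mul_le_mul_left _ (by omega)
  have hr := c.relIndex_RT
  have hr4 : R.relIndex (centralizer (W : Set G)) = 4 := by omega
  have hX2 : (K ⊔ N).relIndex (centralizer (W : Set G)) = 2 := by omega
  have hK8 : Nat.card (K.map (QuotientGroup.mk' N)) = 8 := by
    rw [show (K ⊔ N).index = 4 by omega] at hXi; omega
  have hLN : L ≤ N := by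
    have := ((hs.map (QuotientGroup.mk' N)).eq_of_card_le le_rfl (by omega)).2
    rwa [Subgroup.map_eq_bot_iff, QuotientGroup.ker_mk'] at this
  have h10 : 4 ≤ (L ⊓ N).relIndex (K ⊓ N) := by
    by_contra h10
    have : _ ≤ 3 * 8 := Nat.mul_le_mul (Nat.le_of_lt_succ (not_le.1 h10)) (hK8 ▸ hi1)
    omega
  obtain ⟨hN2, hTN⟩ := c.trivial_of_four hr4
  have hLA : L ≤ A := fun y hy => by
    obtain ⟨x, hx, rfl⟩ := hsq.2 h10 y ⟨hy, hLN hy⟩
    exact hN2 x hx.2
  have hXsq : ∀ x ∈ K ⊔ N, x * x ∈ A := fun x hx => by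
    obtain ⟨k, hk, n, hn, rfl⟩ := H2.exists_mul_of_mem_sup le_normalizer_of_normal hx
    rw [← QuotientGroup.eq_one_iff, ← QuotientGroup.mk'_apply, map_mul, map_mul,
      (hTN k (hKT hk) n hn).symm.mul_mul_mul_comm, ← map_mul, ← map_mul, ← map_mul,
      QuotientGroup.mk'_apply, QuotientGroup.eq_one_iff]
    exact A.mul_mem (hLA (hs.sq k hk)) (hN2 n hn)
  have hZ : ∀ x ∈ K ⊔ N, x ∉ R → a * x * a⁻¹ ∈ K ⊔ N := fun x hx hxR => by
    by_contra ht
    have htT : a * x * a⁻¹ ∈ centralizer (W : Set G) := Normal.conj_mem inferInstance _ (hXT hx) a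
    have ht2 : a * x * a⁻¹ * (a * x * a⁻¹) ∈ A := by
      have := Normal.conj_mem inferInstance _ (hXsq x hx) a
      convert this using 1; group
    refine hxR (c.conj_a_R.1 (c.memR.2 ⟨htT, ?_⟩))
    generalize a * x * a⁻¹ = t at ht htT ht2
    have h1 := A.mul_mem ht2 (hXsq _ (H9.inv_mul_mem_of_relIndex_two hX2 htT c.a0T ht ha0))
    convert h1 using 1
    rw [commutatorElement_def, inv_eq_of_mul_self c.a02]; group
  obtain ⟨k2, hk2, hk2R⟩ := SetLike.not_le_iff_exists.1 (show ¬ K ⊔ N ≤ R from fun h1 => by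
    have := Nat.le_of_dvd (Nat.pos_of_ne_zero index_ne_zero_of_finite) (index_dvd_of_le h1)
    omega)
  obtain ⟨k1, hk1, hk1R, hk1Y⟩ : ∃ k1 ∈ K ⊔ N, k1 ∈ R ∧ k1 ∉ N ⊔ zpowers a0 := by
    by_cases hh : h ∈ K ⊔ N
    · exact ⟨h, hh, c.hR', c.hY⟩
    · exact ⟨h⁻¹ * a0, H9.inv_mul_mem_of_relIndex_two hX2 c.hT c.a0T hh ha0,
        R.mul_mem (R.inv_mem c.hR') (c.YR (a0Y N a0)), fun h1 =>
          c.hY (inv_mem_iff.1 ((Subgroup.mul_mem_cancel_right _ (a0Y N a0)).1 h1))⟩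
  have h11 := mul_mem (hZ _ (mul_mem hk1 hk2) fun h1 => hk2R ((R.mul_mem_cancel_left hk1R).1 h1))
    (inv_mem (hZ _ hk2 hk2R))
  have h12 : ⁅k1, a⁆ ∈ K ⊔ N := by
    have := mul_mem hk1 (inv_mem h11)
    convert this using 1
    rw [commutatorElement_def]; group
  exact ha0 ((Subgroup.mul_mem_cancel_left _ h12).1 (mem_sup_right (c.comm_RY hk1R hk1Y c.aT)))

/-- If `T` acts nontrivially on `N / A` then so does `h`. -/
theorem h_not_trivial (c : C4 W B N A R z w a a0 h) {t : G} (ht : t ∈ centralizer (W : Set G))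
    (ht1 : QuotientGroup.mk' A t ∉ centralizer (N.map (QuotientGroup.mk' A) : Set (G ⧸ A))) :
    QuotientGroup.mk' A h ∉ centralizer (N.map (QuotientGroup.mk' A) : Set (G ⧸ A)) := by
  intro hh
  haveI := c.N_normal
  haveI := c.normal
  obtain ⟨π, hπ⟩ : ∃ π, π = QuotientGroup.mk' A := ⟨_, rfl⟩
  have hπ1 : ∀ x, π x = 1 ↔ x ∈ A := fun x => by rw [hπ]; exact QuotientGroup.eq_one_iff x
  have hπs : Function.Surjective π := hπ ▸ QuotientGroup.mk'_surjective A
  have hcY : ∀ x ∈ N ⊔ zpowers a0, ∀ y ∈ N ⊔ zpowers a0, Commute (π x) (π y) :=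
    fun x hx y hy => hπ ▸ c.commute_Y hx hy
  have hr2 : R.relIndex (centralizer (W : Set G)) = 2 := c.relIndex_RT.resolve_right fun h4 =>
    ht1 (mem_centralizer_iff.2 (by
      rintro _ ⟨x, hx, rfl⟩; exact ((c.trivial_of_four h4).2 t ht x hx).symm))
  have hN4 := c.card_mapN
  rw [← hπ] at ht1 hh hN4
  have hhN : ∀ x ∈ N, Commute (π h) (π x) := fun x hx =>
    (mem_centralizer_iff.1 hh _ (mem_map_of_mem _ hx)).symm
  have hhY : ∀ y ∈ N ⊔ zpowers a0, Commute (π h) (π y) := fun y hy => by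
    rcases c.Y_cases hy with h1 | ⟨x, hx, rfl⟩
    · exact hhN y h1
    · rw [map_mul]; exact (hhN x hx).mul_right ((show Commute h a0 from c.ha0).map π)
  have hRY : ∀ r ∈ R, ∀ y ∈ N ⊔ zpowers a0, Commute (π r) (π y) := fun r hr y hy => by
    rcases c.R_cases hr with h1 | ⟨x, hx, rfl⟩
    · exact hcY r h1 y hy
    · rw [map_mul]; exact (hcY x hx y hy).mul_left (hhY y hy)
  have hRh : ∀ r ∈ R, Commute (π r) (π h) := fun r hr => by
    rcases c.R_cases hr with h1 | ⟨x, hx, rfl⟩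
    · exact (hhY r h1).symm
    · rw [map_mul]; exact (hhY x hx).symm.mul_left (Commute.refl _)
  have htR : t ∉ R := fun h1 => ht1 (mem_centralizer_iff.2 (by
    rintro _ ⟨x, hx, rfl⟩; exact (hRY t h1 x (mem_sup_left hx)).symm))
  have hm : ⁅h, t⁆ ∈ N := (c.secT c.hV).comm_mem c.hT ht
  have hm2 : π ⁅h, t⁆ * π ⁅h, t⁆ = 1 := by
    have h1 : ⁅h * h, t⁆ = 1 := commutatorElement_eq_one_iff_commute.2 (commW ht
      (c.cen_a0 ((c.secT c.hV).sq h c.hT)
        ((show Commute h a0 from c.ha0).mul_left c.ha0).eq)).symm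
    have h2 := congrArg π (commutator_mul_left' h h t)
    rwa [h1, map_one, map_mul, map_mul, map_mul, map_inv, (hhN _ hm).eq, mul_inv_cancel_right,
      eq_comm] at h2
  have hmt : Commute (π t) (π ⁅h, t⁆) := by
    have h2 := congrArg π (commutator_mul_right' t t h)
    rw [map_commutatorElement, commutatorElement_eq_one_iff_commute.2
      (hhN _ ((c.secT c.hV).sq t ht)), map_mul, map_mul, map_mul, map_inv] at h2
    rw [commute_iff_conj_eq, eq_inv_of_mul_eq_one_right h2.symm, inv_eq_of_mul_self hm2]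
  haveI : (N.map π).Normal := Normal.map inferInstance _ hπs
  haveI : ((centralizer (W : Set G)).map π).Normal := Normal.map inferInstance _ hπs
  obtain ⟨F, hF⟩ : ∃ F, F = N.map π ⊓
      centralizer ((centralizer (W : Set G)).map π : Set (G ⧸ A)) := ⟨_, rfl⟩
  haveI : F.Normal := by rw [hF]; infer_instance
  have hmF : π ⁅h, t⁆ ∈ F := by
    rw [hF]
    refine ⟨mem_map_of_mem _ hm, mem_centralizer_iff.2 ?_⟩
    rintro _ ⟨s, hs, rfl⟩
    by_cases hsR : s ∈ R
    · exact hRY s hsR _ (mem_sup_left hm)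
    · have := hmt.mul_left (hRY _ (H9.inv_mul_mem_of_relIndex_two hr2 ht hs htR hsR) _
        (mem_sup_left hm))
      rwa [← map_mul, mul_inv_cancel_left] at this
  have hFlt : F < N.map π := by
    refine lt_of_le_of_ne (hF ▸ inf_le_left) fun h1 => ht1 (mem_centralizer_iff.2 fun x hx => ?_)
    rw [← h1, SetLike.mem_coe, hF] at hx
    exact (mem_centralizer_iff.1 hx.2 _ (mem_map_of_mem _ ht)).symm
  have hF2 := H9.mul_card_le_of_lt (p := 2) ((c.pg.to_quotient A).to_subgroup _) hFlt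
  have hFc : F ≤ center (G ⧸ A) := by
    rcases (two_pow_le_or (card_two_pow (c.pg.to_quotient A) F) 0) with h6 | h6
    · rw [(card_le_one_iff_eq_bot F).1 h6]; exact bot_le
    · exact H9.le_center_of_card_prime (p := 2) (c.pg.to_quotient A) (by omega)
  have hma : π a * π ⁅h, t⁆ * (π a)⁻¹ = π ⁅h, t⁆ := by
    rw [mem_center_iff.1 (hFc hmF), mul_inv_cancel_right]
  have hy : t⁻¹ * (a * t * a⁻¹) ∈ R := H9.inv_mul_mem_of_relIndex_two hr2 ht
    (Normal.conj_mem inferInstance _ ht a) htR (fun h1 => htR (c.conj_a_R.1 h1))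
  have e1 : a * h * a⁻¹ = a0 * h := by
    rw [← inv_eq_of_mul_self c.a02, ← c.ha, commutatorElement_inv, commutatorElement_def]; group
  have e2 : a * ⁅h, t⁆ * a⁻¹ = a0 * ⁅h, t⁆ * a0⁻¹ * ⁅a0, t⁆ *
      (t * ⁅a0 * h, t⁻¹ * (a * t * a⁻¹)⁆ * t⁻¹) := by
    rw [conjugate_commutatorElement, e1, ← commutator_mul_left', ← commutator_mul_right',
      mul_inv_cancel_left]
  have e3 : π ⁅a0 * h, t⁻¹ * (a * t * a⁻¹)⁆ = 1 := by
    rw [map_commutatorElement, commutatorElement_eq_one_iff_commute, map_mul π a0]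
    exact ((hRY _ hy _ (a0Y N a0)).mul_right (hRh _ hy)).symm
  have e4 := congrArg π e2
  simp only [map_mul, map_inv, e3, hma, (hcY _ (a0Y N a0) _ (mem_sup_left hm)).eq, mul_one,
    mul_inv_cancel_right, mul_inv_cancel, left_eq_mul] at e4
  exact htR (c.memR.2 ⟨ht, H9.commutator_mem_comm ((hπ1 _).1 e4)⟩)

theorem step2 (c : C4 W B N A R z w a a0 h) {K L : Subgroup G} (hs : Sec K L)
    (h32 : 32 ≤ L.relIndex K) (ha0 : a0 ∈ K ⊔ N) : False := by
  haveI := c.N_normal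
  haveI := c.normal
  have hT2 := c.T_index c.pg
  obtain ⟨n, hn, hk, hkL⟩ : ∃ n ∈ N, n * a0 ∈ K ∧ ((∃ m ∈ N, m * a0 ∈ L) → n * a0 ∈ L) := by
    by_cases h1 : ∃ m ∈ N, m * a0 ∈ L
    · obtain ⟨m, hm, h1⟩ := h1
      exact ⟨m, hm, hs.le h1, fun _ => h1⟩
    · obtain ⟨n, hn, k, hk, e⟩ := H2.exists_mul_of_mem_sup' (H := K) (N := N) (x := a0)
        le_normalizer_of_normal (by rwa [sup_comm])
      exact ⟨n⁻¹, N.inv_mem hn, by rw [e]; simpa using hk, fun h => (h1 h).elim⟩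
  have hkY : n * a0 ∈ N ⊔ zpowers a0 := mul_mem (mem_sup_left hn) (a0Y N a0)
  obtain ⟨C, hC⟩ : ∃ C, C = K ⊓ centralizer {n * a0} := ⟨_, rfl⟩
  have hCK : C ≤ K := hC ▸ inf_le_left
  have hCc : ∀ x ∈ C, Commute x (n * a0) := fun x hx =>
    mem_centralizer_singleton_iff.1 (hC ▸ hx : x ∈ K ⊓ centralizer {n * a0}).2
  have hC32 : 32 ≤ Nat.card C := hC ▸ h32.trans (hs.relIndex_le_card_centralizer hk)
  have hC33 : Nat.card C ≤ 32 → ∀ x ∈ L, x * a0 ∉ N := fun h1 x hx h2 => by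
    have h3 := hs.relIndex_lt_card_centralizer (hkL ⟨x * a0, h2, by
      rwa [mul_assoc, c.a02, mul_one]⟩) fun h3 => c.a0N (by
        rw [eq_inv_of_mul_eq_one_right h3]; exact N.inv_mem hn)
    rw [← hC] at h3; omega
  have hcard : ∀ H X : Subgroup G, H ≤ C → H ≤ X → Nat.card H ≤ N.relIndex X * 4 := by
    intro H X h1 h2
    rw [H9.card_eq_relIndex_mul' (K := N) (L := H), ← c.W_card]
    exact Nat.mul_le_mul (relIndex_le_of_le_right h2 H9.relIndex_pos.ne')
      (H9.card_le_of_le' fun x hx => c.cen_k0 c.pg hn hx.1 (hCc x (h1 hx.2)))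
  have hCT := card_le_index_mul C (centralizer (W : Set G))
  rw [hT2] at hCT
  obtain ⟨π, hπ⟩ : ∃ π, π = QuotientGroup.mk' A := ⟨_, rfl⟩
  have hπ1 : ∀ x, π x = 1 ↔ x ∈ A := fun x => by rw [hπ]; exact QuotientGroup.eq_one_iff x
  have hπs : Function.Surjective π := hπ ▸ QuotientGroup.mk'_surjective A
  obtain ⟨S, hS⟩ : ∃ S, S = (centralizer (N.map π : Set (G ⧸ A))).comap π := ⟨_, rfl⟩
  have hSm : ∀ g, g ∈ S ↔ ∀ x ∈ N, ⁅g, x⁆ ∈ A := fun g => by
    rw [hS, mem_comap, mem_centralizer_iff]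
    refine ⟨fun h1 x hx => ?_, ?_⟩
    · rw [← hπ1, map_commutatorElement, commutatorElement_eq_one_iff_mul_comm]
      exact (h1 _ (mem_map_of_mem _ hx)).symm
    · rintro h1 _ ⟨x, hx, rfl⟩
      rw [eq_comm, ← commutatorElement_eq_one_iff_mul_comm, ← map_commutatorElement, hπ1]
      exact h1 x hx
  have hS2 : S.index ≤ 2 := by
    haveI : (N.map π).Normal := Normal.map inferInstance _ hπs
    rw [hS, index_comap_of_surjective _ hπs]
    exact index_centralizer_four_le (c.pg.to_quotient A) (hπ ▸ c.card_mapN)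
  have hYS : N ⊔ zpowers a0 ≤ S := fun y hy => (hSm y).2 fun x hx => c.comm_Y hy (mem_sup_left hx)
  have hCR : ∀ t ∈ C, t ∈ centralizer (W : Set G) → t ∈ S → t ∈ R := fun t ht htT htS => by
    refine c.memR.2 ⟨htT, ?_⟩
    have h1 := commutator_mul_right' n a0 t
    rw [commutatorElement_eq_one_iff_commute.2 (hCc t ht)] at h1
    have h2 : n * ⁅t, a0⁆ * n⁻¹ ∈ A := by
      rw [eq_inv_of_mul_eq_one_right h1.symm]; exact A.inv_mem ((hSm t).1 htS n hn)
    simpa [mul_assoc] using Normal.conj_mem inferInstance _ h2 n⁻¹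
  by_cases hTS : centralizer (W : Set G) ≤ S
  · have h1 : centralizer (W : Set G) ⊓ C ≤ R := fun t ht => hCR t ht.2 ht.1 (hTS ht.1)
    have h2 := hcard _ _ inf_le_right h1
    rw [c.relIndex_R] at h2
    obtain ⟨s, hsC, hsT⟩ := SetLike.not_le_iff_exists.1
      (show ¬ C ≤ centralizer (W : Set G) from fun h3 => by
        rw [inf_eq_right.2 h3] at h2; omega)
    obtain ⟨r, hr, hrY⟩ := SetLike.not_le_iff_exists.1
      (show ¬ centralizer (W : Set G) ⊓ C ≤ N ⊔ zpowers a0 from fun h3 => by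
        have := hcard _ _ inf_le_right h3
        rw [c.relIndex_Y] at this; omega)
    exact hC33 (by omega) _ (hs.comm_mem (hCK hr.2) (hCK hsC)) (c.comm_RY (h1 hr) hrY hsT)
  obtain ⟨t, ht, htS⟩ := SetLike.not_le_iff_exists.1 hTS
  have hhS : h ∉ S := by
    rw [hS, mem_comap, hπ] at htS ⊢
    exact c.h_not_trivial ht htS
  have h1 : S ⊓ (centralizer (W : Set G) ⊓ C) ≤ N ⊔ zpowers a0 := fun x hx => by
    refine (c.R_cases (hCR x hx.2.2 hx.2.1 hx.1)).resolve_right ?_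
    rintro ⟨y, hy, rfl⟩
    exact hhS ((S.mul_mem_cancel_left (hYS hy)).1 hx.1)
  have h2 := hcard _ _ (inf_le_right.trans inf_le_right) h1
  rw [c.relIndex_Y] at h2
  have h3 := card_le_index_mul (centralizer (W : Set G) ⊓ C) S
  have h4 : _ ≤ 2 * (2 * 4) := h3.trans (Nat.mul_le_mul hS2 h2)
  obtain ⟨s, hsC, hsT⟩ := SetLike.not_le_iff_exists.1
    (show ¬ C ≤ centralizer (W : Set G) from fun h3 => by
      rw [inf_eq_right.2 h3] at h4; omega)
  obtain ⟨e, he, heS⟩ := SetLike.not_le_iff_exists.1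
    (show ¬ centralizer (W : Set G) ⊓ C ≤ S from fun h3 => by
      rw [inf_eq_right.2 h3] at h2; omega)
  have hesL := hs.comm_mem (hCK he.2) (hCK hsC)
  have hesC : ⁅e, s⁆ ∈ C := mul_mem (mul_mem (mul_mem he.2 hsC) (inv_mem he.2)) (inv_mem hsC)
  have hesW : ⁅e, s⁆ ∈ W := by
    refine c.cen_k0 c.pg hn ?_ (hCc _ hesC)
    exact (c.memY.1 (h1 ⟨commutator_mem_of_index_le_two hS2 _ _,
      commutator_mem_of_index_le_two hT2.le _ _, hesC⟩)).resolve_right (hC33 (by omega) _ hesL)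
  have hΦ4 : (H9.Phi 2 A).relIndex A ≤ 4 :=
    (c.lp c.pg).sr_comm _ _ c.hA.le (sec_Phi A)
  have hcyc : ∀ g ∈ centralizer (W : Set G), ∀ s ∉ centralizer (W : Set G), ⁅g, s⁆ ∈ A →
      ∀ x ∈ A, ⁅g, x⁆ ∈ H9.Phi 2 A := fun g hg s hs h5 x hx => by
    by_contra h6
    exact hs (mem_centralizer_iff.2 fun v hv => (cyc_comm c.pg c.A_comm hΦ4 hx h6
      (fun b hb => c.A_comm _ h5 _ hb) (c.WA hv) (c.W_sq hv) (commW hg hv)).symm.eq)
  have he1 := hcyc e he.1 s hsT (c.WA hesW)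
  obtain ⟨s1, hs1S, hs1T⟩ : ∃ s1 ∈ S, s1 ∉ centralizer (W : Set G) := by
    by_cases haS : a ∈ S
    · exact ⟨a, haS, c.aT⟩
    · have h0 : S.index ≠ 0 := index_ne_zero_of_finite
      have h5 : S.index ≠ 1 := fun h5 => haS (index_eq_one.1 h5 ▸ mem_top a)
      exact ⟨e * a, (mul_mem_iff_of_index_two (by omega)).2 (by tauto),
        fun h6 => c.aT ((Subgroup.mul_mem_cancel_left _ he.1).1 h6)⟩
  have hn1 := hcyc n (c.NT hn) s1 hs1T (H9.commutator_mem_comm ((hSm s1).1 hs1S n hn))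
  haveI := Phi_normal A
  have hu : ∀ g ∈ N, ⁅g, n * a0⁆ ∈ A := fun g hg => c.comm_Y (mem_sup_left hg) hkY
  have hsurj := (card_le_mul_of_fibres (K := A) (U := W) (L := H9.Phi 2 A)
    (fun y => ⁅y, n * a0⁆) (fun y hy => by
      rw [commutator_mul_right']
      refine mul_mem (H9.commutator_mem_comm (hn1 y hy)) (Normal.conj_mem inferInstance _ ?_ _)
      rw [commutator_eq_sq_of_inverts ((c.lp c.pg).inverts (c.hA ▸ hy))]
      exact (sec_Phi A).sq y hy)
    (fun x hx y hy e => c.cen_k0 c.pg hn (c.A_le (mul_mem (inv_mem hx) hy))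
      (commute_of_commutator_eq e.symm))).2
    (card_Phi_mul_le c.A_comm c.WA fun _ hw => c.W_sq hw)
  refine heS ((hSm e).2 fun g hg => ?_)
  obtain ⟨y, hy, e1⟩ := hsurj _ (he1 _ (hu g hg))
  have e2 : ⁅e * g * e⁻¹, n * a0⁆ = ⁅y * g, n * a0⁆ := by
    rw [commutator_mul_left' y, c.A_comm _ hy _ (hu g hg), mul_inv_cancel_right, e1,
      c.A_comm _ (hu g hg) _ (H9.Phi_le A (he1 _ (hu g hg))), commutatorElement_def e,
      inv_mul_cancel_right, conjugate_commutatorElement, (hCc e he.2).eq, mul_inv_cancel_right]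
  have h5 := c.cen_k0 c.pg hn (mul_mem (inv_mem (mul_mem (c.A_le hy) hg))
    (Normal.conj_mem inferInstance _ hg e)) (commute_of_commutator_eq e2)
  have h6 := A.mul_mem hy (Normal.conj_mem inferInstance _ (c.WA h5) g)
  convert h6 using 1
  rw [commutatorElement_def]; group

end C4

theorem C3.caseSmall [Finite G] (hG : IsPGroup 2 G) {W B N : Subgroup G} {z w a a0 h : G}
    (c : C3 W B N z w a a0 h) (hV : ∀ v ∈ N, v * v = 1 → v ∈ W) : SR (⊤ : Subgroup G) 16 := by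
  haveI := c.N_normal
  haveI := c.normal
  intro K L _ hs
  have hsp := relIndex_split_normal hs.le N
  have hi0 := ((hs.inf N).relIndex_le_of_sq (U := W) fun x hx y hy e =>
    c.alp.sq_fibre' hG (fun b hb => hV b (c.BN hb)) x (c.hN ▸ hx.2) y (c.hN ▸ hy.2) e).1
  rw [c.W_card] at hi0
  have hT2 := c.T_index hG
  by_cases h4 : N.relIndex (centralizer (W : Set G)) ≤ 4
  · have h1 := relIndex_mul_index c.NT
    rw [hT2] at h1
    have hi1 : _ ≤ 2 ^ 2 := c.sr_quot hG (k := 2) (by omega) _ _ le_top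
      (hs.map (QuotientGroup.mk' N))
    rw [hsp]; exact Nat.mul_le_mul hi0 hi1
  obtain ⟨x, hx, hxz⟩ := c.exists_gen hV h4
  have c4 : C4 W B N _ _ z w a a0 h := ⟨c, hG, hV, rfl, rfl, c.W_le_A hV hx hxz, h4⟩
  haveI := c4.A_normal
  by_contra hlt
  have h32 : 2 ^ (4 + 1) ≤ L.relIndex K :=
    two_pow_ge_of_gt (relIndex_two_pow hG L K) (not_le.1 hlt)
  by_cases ha0 : a0 ∈ K ⊔ N
  · exact c4.step2 hs h32 ha0
  by_cases hKT : K ≤ centralizer (W : Set G)
  · exact c4.step1 hs h32 hKT ha0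
  obtain ⟨s, hsK, hsT⟩ := SetLike.not_le_iff_exists.1 hKT
  have hD := c.card_D hV hx hxz
  obtain ⟨f, hf⟩ : ∃ f, f = QuotientGroup.mk' N := ⟨_, rfl⟩
  have hfs : Function.Surjective f := hf ▸ QuotientGroup.mk'_surjective N
  have hfk : f.ker = N := hf ▸ QuotientGroup.ker_mk' N
  rw [← hf] at hsp hD
  haveI : ((centralizer (W : Set G)).map f).Normal := Normal.map inferInstance _ hfs
  have h1 := relIndex_le_mul_relIndex_inf (hs.map f).le ((centralizer (W : Set G)).map f)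
  have h2 : ((centralizer (W : Set G)).map f).relIndex (K.map f) ≤ 2 := by
    rw [← hT2, ← index_map_eq _ hfs (hfk.le.trans c.NT), ← relIndex_top_right]
    exact relIndex_le_of_le_right le_top H9.relIndex_pos.ne'
  have h3 := (hs.map f).relIndex_inf_le ((centralizer (W : Set G)).map f) (mem_map_of_mem f hsK)
  have hTc : ∀ x ∈ centralizer (W : Set G), ∀ y ∈ centralizer (W : Set G), Commute (f x) (f y) :=
    fun x hx y hy => by
      rw [← commutatorElement_eq_one_iff_commute, ← map_commutatorElement, ← MonoidHom.mem_ker, hfk]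
      exact (c.secT hV).comm_mem hx hy
  have h5 : K.map f ⊓ (centralizer (W : Set G)).map f ⊓ centralizer {f s} <
      (centralizer (W : Set G)).map f ⊓ centralizer {f a} := by
    refine lt_of_le_of_ne ?_ fun h5 => ha0 ?_
    · rintro _ ⟨⟨-, t, ht, rfl⟩, h6⟩
      refine ⟨mem_map_of_mem _ ht, mem_centralizer_singleton_iff.2 ?_⟩
      have h7 : s⁻¹ * a ∈ centralizer (W : Set G) :=
        (mul_mem_iff_of_index_two hT2).2 (by rw [inv_mem_iff]; have := c.aT; tauto)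
      have := (show Commute (f t) (f s) from mem_centralizer_singleton_iff.1 h6).mul_right
        (hTc t ht _ h7)
      rwa [← map_mul, mul_inv_cancel_left] at this
    · have h6 : f a0 ∈ K.map f := (h5.ge ⟨mem_map_of_mem _ c.a0T, mem_centralizer_singleton_iff.2
        ((show Commute a0 a from c.a0a).map f)⟩).1.1
      rwa [← mem_comap, comap_map_eq, hfk] at h6
  have h6 := H9.mul_card_le_of_lt (p := 2) ((hG.to_quotient N).to_subgroup _) h5
  have h7 : _ ≤ 2 * 2 := h1.trans (Nat.mul_le_mul (h3.trans (by omega)) h2)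
  have := Nat.mul_le_mul hi0 h7
  omega

/-- Harada's four generator theorem. -/
theorem sr_of_selfCentralizing_eight [Finite G] (hG : IsPGroup 2 G) {E : Subgroup G}
    (hE : ∀ e ∈ E, e * e = 1) (h8 : Nat.card E = 8) (hC : centralizer (E : Set G) ≤ E) :
    SR (⊤ : Subgroup G) 16 := by
  obtain ⟨B, hB⟩ := exists_alp hG
  obtain ⟨z, hz, w, hw, hz2, hw2, hzc, hwz, hwc⟩ := hB.exists_four hG hE h8
  rcases exists_c2 hG hE h8 hC hz2 hw2 hzc hwz hwc with h1 | ⟨a, a0, h, c⟩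
  · exact h1
  have hWB := closure_pair_le hz hw
  by_cases h0 : a0 ∈ centralizer (B : Set G)
  · exact c.caseIn hG hB hWB h0
  have c3 : C3 _ B _ z w a a0 h := ⟨c, hB, hWB, rfl, h0⟩
  by_cases hV : ∀ v ∈ centralizer (B : Set G), v * v = 1 → v ∈ closure ({z, w} : Set G)
  · exact c3.caseSmall hG hV
  push Not at hV
  obtain ⟨v, h1, h2, h3⟩ := hV
  exact c3.caseBig hG h1 h2 h3

end Cfsg.Agent.H6
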