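import Cfsg.Agent.Lib.H6.SecC

/-! Sectional rank when a Sylow subgroup of an involution centralizer is `D × B` (helper6). -/

set_option autoImplicit false
set_option linter.style.haveILetI false
open Cfsg Subgroup
open scoped Pointwise commutatorElement

namespace Cfsg.Agent.H6

variable {G : Type*} [Group G]

theorem SR.of_subgroup [Finite G] {S : Subgroup G} {n : ℕ} (h : SR (⊤ : Subgroup S) n) : SR S n :=
  fun K L hK hs => by
    rw [← relIndex_subgroupOf hK]
    exact h _ _ le_top ⟨fun x hx => hs.le hx, fun g hg => mem_normalizer_of_conj_mem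
      fun x hx => hs.conj_mem hg hx, fun x hx => hs.sq x hx⟩

theorem relIndex_centralizer_lt [Finite G] {H N : Subgroup G} {x : G} (h : ∀ g ∈ H, ⁅g, x⁆ ∈ N)
    (hx : x ∈ N) (h1 : x ≠ 1) : (centralizer ({x} : Set G)).relIndex H < Nat.card N := by
  by_contra hle
  obtain ⟨k, -, hk⟩ := H9.exists_commutator_eq_of_card h (not_lt.1 hle) (N.inv_mem hx)
  rw [commutatorElement_def, mul_eq_right] at hk
  exact h1 (by simpa using hk)

theorem card_mul_le_of_disjoint [Finite G] {U B T : Subgroup G} (hT : ∀ t ∈ T, t * t = 1)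
    (hU : U ≤ T) (hB : B ≤ T) (h : ∀ b ∈ B, b ∈ U → b = 1) :
    Nat.card U * Nat.card B ≤ Nat.card T := by
  have h1 := H2.card_sup_mul_card_inf U B fun u hu => centralizer_le_normalizer _
    (mem_centralizer_iff.2 fun b hb => commute_of_mul_self hT (hB hb) (hU hu))
  rw [(eq_bot_iff_forall (U ⊓ B)).2 fun x hx => h x hx.2 hx.1, card_bot, mul_one] at h1
  rw [← h1]; exact H9.card_le_of_le' (sup_le hU hB)

theorem sr_of_sixteen [Finite G] (hG : IsPGroup 2 G) {T B : Subgroup G} (hT : ∀ t ∈ T, t * t = 1)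
    (h16 : Nat.card T = 16) (hBT : B ≤ T) (h4 : Nat.card B = 4)
    (hC : ∀ b ∈ B, b ≠ 1 → centralizer ({b} : Set G) ≤ T) : SR (⊤ : Subgroup G) 16 := by
  intro K L _ hs
  by_contra hlt
  have h32 : 2 ^ (4 + 1) ≤ L.relIndex K :=
    two_pow_ge_of_gt (relIndex_two_pow hG L K) (not_le.1 hlt)
  have hK32 := relIndex_le_card L K
  have hTg : ∀ g, ∀ t ∈ cj g T, t * t = 1 := by
    rintro g _ ⟨t, ht, rfl⟩; exact conj_mul_self (hT t ht) g
  have h1 : ∀ g, Nat.card (cj g T ⊓ K : Subgroup G) ≤ 4 := fun g => by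
    have := card_mul_le_of_disjoint (hTg g) (inf_le_left : cj g T ⊓ K ≤ _) (cj_mono g hBT) (by
      rintro _ ⟨b, hb, rfl⟩ h
      by_contra hne
      have h2 := hs.relIndex_le_card_centralizer' (g := g * b * g⁻¹) h.2
      have h3 := H9.card_le_of_le' (hC b hb fun h => hne (by simp [h]))
      rw [card_centralizer_conj] at h2
      omega)
    rw [card_cj, card_cj, h4, h16] at this; omega
  have h1' : Nat.card (T ⊓ K : Subgroup G) ≤ 4 := by simpa [cj_one] using h1 1
  obtain ⟨N, hN⟩ : ∃ N, N = normalizer (T : Set G) := ⟨_, rfl⟩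
  have hTN : T ≤ N := hN ▸ le_normalizer
  have hNm : ∀ g, g ∈ N ↔ cj g T = T := fun g => by rw [hN, cj_eq_self_iff]
  have hNi : T.relIndex N ≤ 4 := by
    obtain ⟨M, hM1, hM2, hM3⟩ := H9.exists_le_relIndex_eq_of_lt (p := 2) (hG.to_subgroup T)
      (H9.commutator_lt_of_ne_bot (p := 2) (hG.to_subgroup N) hTN hN.le
        (fun h => by rw [h, card_bot] at h16; omega))
    have hM8 := card_eq_relIndex_mul_of_le hM2
    rw [hM3, h16] at hM8
    obtain ⟨b, hb, hbM, hb1⟩ : ∃ b ∈ B, b ∈ M ∧ b ≠ 1 := by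
      by_contra h
      push Not at h
      have := card_mul_le_of_disjoint hT hM2 hBT h
      rw [h4] at this; omega
    have h2 := relIndex_centralizer_lt (H := N) (fun g hg => H9.commutator_mem_comm
      (hM1 (commutator_mem_commutator (hBT hb) hg))) hbM hb1
    rw [le_antisymm (hC b hb hb1) (show T ≤ centralizer {b} from fun t ht =>
      mem_centralizer_singleton_iff.2 (commute_of_mul_self hT ht (hBT hb)))] at h2
    exact two_pow_le_of_lt (k := 2) (relIndex_two_pow hG _ _) (by omega)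
  have hKT := card_le_index_mul K T
  by_cases hNt : N = ⊤
  · rw [hNt, relIndex_top_right] at hNi
    have := Nat.mul_le_mul hNi h1'
    omega
  obtain ⟨x, -, hxN, hxn, hx2⟩ := exists_mem_normalizer_not_mem_pow (p := 2) (hG.to_subgroup ⊤)
    (lt_top_iff_ne_top.2 hNt)
  have hcjN : ∀ e ∈ normalizer (N : Set G), cj e T ≤ N := fun e he =>
    (cj_mono e hTN).trans (cj_eq_self_iff.2 he).le
  obtain ⟨T', hT'⟩ : ∃ T', T' = cj x T := ⟨_, rfl⟩
  have hT'N : T' ≤ N := hT' ▸ hcjN x hxn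
  have hT'2 : ∀ t ∈ T', t * t = 1 := hT' ▸ hTg x
  have hT'16 : Nat.card T' = 16 := by rw [hT', card_cj, h16]
  have hN64 := card_eq_relIndex_mul_of_le hTN
  have hc := H2.card_sup_mul_card_inf T' T (hT'N.trans hN.le)
  have hc2 := H9.card_le_of_le' (sup_le hT'N hTN)
  rw [h16] at hN64
  rw [hT'16, h16] at hc
  have hZ : ∀ t ∈ T', t ∉ T → T' ⊓ T = T ⊓ centralizer {t} ∧ Nat.card (T' ⊓ T : Subgroup G) ≤ 4 := by
    intro t ht htT
    have h2 := card_mul_le_of_disjoint hT (inf_le_left : T ⊓ centralizer {t} ≤ _) hBT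
      fun b hb h => by
        by_contra hne
        exact htT (hC b hb hne (mem_centralizer_singleton_iff.2
          (mem_centralizer_singleton_iff.1 h.2).symm))
    have h3 : T' ⊓ T ≤ T ⊓ centralizer {t} := fun y hy =>
      ⟨hy.2, mem_centralizer_singleton_iff.2 (commute_of_mul_self hT'2 hy.1 ht)⟩
    have h5 : 4 ≤ Nat.card (T' ⊓ T : Subgroup G) := by
      by_contra h5
      have : _ ≤ 64 * 3 := Nat.mul_le_mul (show Nat.card (T' ⊔ T : Subgroup G) ≤ 64 by omega)
        (Nat.le_of_lt_succ (not_le.1 h5))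
      omega
    rw [h4, h16] at h2
    exact ⟨eq_of_le_of_card_ge h3 (by omega), (H9.card_le_of_le' h3).trans (by omega)⟩
  have hne : ¬ T' ≤ T := fun h => hxN ((hNm x).2 (hT' ▸ eq_of_le_of_card_ge h (by omega)))
  obtain ⟨t0, ht0, ht0T⟩ := SetLike.not_le_iff_exists.1 hne
  have hZ4 := (hZ t0 ht0 ht0T).2
  have h64 : 64 ≤ Nat.card (T' ⊔ T : Subgroup G) := by
    by_contra h5
    have : _ ≤ 63 * 4 := Nat.mul_le_mul (Nat.le_of_lt_succ (not_le.1 h5)) hZ4
    omega
  have hsup : T' ⊔ T = N := eq_of_le_of_card_ge (sup_le hT'N hTN) (by omega)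
  have hinv : ∀ n ∈ N, n * n = 1 → n ∈ T ∨ n ∈ T' := fun n hn h => by
    obtain ⟨a, ha, t, ht, rfl⟩ := H2.exists_mul_of_mem_sup (hT'N.trans hN.le) (hsup.ge hn)
    by_cases haT : a ∈ T
    · exact Or.inl (T.mul_mem haT ht)
    · refine Or.inr (T'.mul_mem ha ((hZ a ha haT).1.ge ⟨ht, mem_centralizer_singleton_iff.2 ?_⟩).1)
      rw [← inv_eq_of_mul_self h, mul_inv_rev, inv_eq_of_mul_self (hT t ht),
        inv_eq_of_mul_self (hT'2 a ha)]
  have helem : ∀ U ≤ N, (∀ u ∈ U, u * u = 1) → U ≤ T ∨ U ≤ T' := fun U hU h => by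
    by_contra h2
    push Not at h2
    obtain ⟨u, hu, huT⟩ := SetLike.not_le_iff_exists.1 h2.1
    obtain ⟨v, hv, hvT⟩ := SetLike.not_le_iff_exists.1 h2.2
    have h3 := (hinv u (hU hu) (h u hu)).resolve_left huT
    have h5 := (hinv v (hU hv) (h v hv)).resolve_right hvT
    rcases hinv _ (hU (U.mul_mem hu hv)) (h _ (U.mul_mem hu hv)) with h6 | h6
    · exact huT ((T.mul_mem_cancel_right h5).1 h6)
    · exact hvT ((T'.mul_mem_cancel_left h3).1 h6)
  have hcj : ∀ e, cj e T ≤ N → e ∈ N ∨ cj e T = T' := fun e he =>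
    (helem _ he (hTg e)).imp
      (fun h => (hNm e).2 (eq_of_le_of_card_ge h (card_cj e T).ge))
      fun h => eq_of_le_of_card_ge h (by rw [card_cj]; omega)
  have hx' : ∀ e, cj e T = T' → x⁻¹ * e ∈ N := fun e he => (hNm _).2 (by
    rw [← cj_cj, he, hT', cj_inv_cj])
  have hN1 : normalizer (N : Set G) = N ⊔ zpowers x := by
    refine le_antisymm (fun e he => ?_) (sup_le le_normalizer (zpowers_le_of_mem hxn))
    rcases hcj e (hcjN e he) with h | h
    · exact mem_sup_left h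
    · simpa using mul_mem (mem_sup_right (mem_zpowers x)) (mem_sup_left (hx' e h))
  have hN128 := card_sup_zpowers_eq hxn (pow_two x ▸ hx2) hxN
  rw [← hN1] at hN128
  have hi2 : N.relIndex (normalizer (N : Set G)) = 2 := by
    rw [card_eq_relIndex_mul_of_le le_normalizer] at hN128
    exact Nat.eq_of_mul_eq_mul_right Nat.card_pos hN128
  have htop : normalizer (N : Set G) = ⊤ := by
    by_contra hne
    obtain ⟨y, -, hy, hyn⟩ := exists_mem_normalizer_not_mem (p := 2) (hG.to_subgroup ⊤)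
      (lt_top_iff_ne_top.2 hne)
    have h2 : cj y T ≤ normalizer (N : Set G) :=
      (cj_mono y (hTN.trans le_normalizer)).trans (cj_eq_self_iff.2 hyn).le
    have h3 : ¬ cj y T ≤ N := fun h => hy (by
      rcases hcj y h with h | h
      · exact le_normalizer h
      · simpa using mul_mem hxn (le_normalizer (hx' y h)))
    obtain ⟨e, he, heN⟩ := SetLike.not_le_iff_exists.1 h3
    have h5 := H9.card_eq_relIndex_mul' (K := N) (L := cj y T)
    have h6 := (relIndex_le_of_le_right h2 H9.relIndex_pos.ne').trans hi2.le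
    have h7 := (hcj e (hcjN e (h2 he))).resolve_left heN
    have h8 := (hcj e⁻¹ (hcjN _ (inv_mem (h2 he)))).resolve_left (by simpa using heN)
    have h9 : N ⊓ cj y T ≤ T' ⊓ T := by
      have hue : ∀ u ∈ N ⊓ cj y T, e * u * e⁻¹ = u := fun u hu => by
        rw [commute_of_mul_self (hTg y) he hu.2, mul_inv_cancel_right]
      rcases helem _ (inf_le_left : N ⊓ cj y T ≤ N) (fun u hu => hTg y u hu.2) with h | h
      · exact fun u hu => mem_inf.2
          ⟨by rw [← h7, ← hue u hu]; exact conj_mem_cj (h hu), h hu⟩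
      · refine fun u hu => mem_inf.2 ⟨h hu, ?_⟩
        have := h hu
        rw [← h8, mem_cj, inv_inv] at this
        rwa [← hue u hu]
    have h10 := H9.card_le_of_le' h9
    rw [card_cj, h16] at h5
    have := Nat.mul_le_mul h6 (h10.trans hZ4)
    omega
  rw [htop, relIndex_top_right] at hi2
  have hTi := relIndex_mul_index hTN
  rw [hi2] at hTi
  have hK : Nat.card K ≤ 8 * 4 := hKT.trans (Nat.mul_le_mul (by omega) h1')
  have hL := (hs.eq_of_card_le le_rfl (by omega)).2
  have hKN := card_le_index_mul K N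
  rw [hi2] at hKN
  have h2 := h1 x
  rw [← hT'] at h2
  rcases helem _ (inf_le_left : N ⊓ K ≤ N) (fun u hu => mem_bot.1 (hL ▸ hs.sq u hu.2)) with h | h
  · have := H9.card_le_of_le' (le_inf h inf_le_right); omega
  · have := H9.card_le_of_le' (le_inf h inf_le_right); omega

theorem sr_of_mc_prod [Finite G] {S T D B : Subgroup G} (hS : IsPGroup 2 S) (hTS : T ≤ S)
    (hp : IsInternalDirectProduct D B T) {m : ℕ} {a b : ℤ} {x y : G} (hD : MC D m a b x y)
    (hB : IsKleinFour B) (hC : ∀ b ∈ B, b ≠ 1 → S ⊓ centralizer ({b} : Set G) ≤ T) :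
    SR S 16 := by
  obtain ⟨hDT, hBT, hc, hi, hsup⟩ := hp
  obtain ⟨h4, hB2⟩ := isKleinFour_iff.1 hB
  have hn : D ≤ normalizer (B : Set G) := fun a ha => centralizer_le_normalizer _
    (mem_centralizer_iff.2 fun b hb => (hc a ha b hb).symm)
  have hm : ∀ t ∈ T, ∃ d ∈ D, ∃ b ∈ B, t = d * b := fun t ht =>
    H2.exists_mul_of_mem_sup hn (hsup ▸ ht)
  have hBc : ∀ b ∈ B, ∀ t ∈ T, Commute t b := fun b hb t ht => by
    obtain ⟨d, hd, b', hb', rfl⟩ := hm t ht
    exact (show Commute d b from hc d hd b hb).mul_left (commute_of_mul_self hB2 hb' hb)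
  obtain ⟨z, hz⟩ : ∃ z, z = x ^ (2 * m : ℤ) := ⟨_, rfl⟩
  have hz2 : z * z = 1 := hz ▸ hD.z_mul_self
  have hzD : z ∈ D := hz ▸ hD.zpow_mem _
  have hzB : z ∉ B := fun h => hD.z_ne_one (hz ▸ mem_bot.1 (hi ▸ ⟨hzD, h⟩ : z ∈ (⊥ : Subgroup G)))
  have hzc : ∀ t ∈ T, Commute t z := fun t ht => by
    obtain ⟨d, hd, b', hb', rfl⟩ := hm t ht
    exact (show Commute d z from hz ▸ hD.z_comm hd).mul_left (hc z hzD b' hb').symm
  have hcen : ∀ d ∈ D, (∀ t ∈ T, Commute t d) → d = 1 ∨ d = z := fun d hd h =>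
    (mem_zpowers_two hz2).1 (hz ▸ hD.mem_zpowers_z hd fun s hs => h s (hDT hs))
  have hST : S ≤ T := by
    by_contra hne
    obtain ⟨n, hnS, hnT, hnn, hn2⟩ := H9.exists_mem_normalizer_not_mem hS hTS hne
    have hcc : ∀ u, (∀ t ∈ T, Commute t u) → ∀ t ∈ T, Commute t (n * u * n⁻¹) := fun u h t ht => by
      have := (commute_conj_iff (g := n)).2 (h _ (conj_mem_of_mem_normalizer' hnn ht))
      simpa [mul_assoc] using this
    have hnz : n * z * n⁻¹ = z := by
      obtain ⟨d, hd, b', hb', e⟩ := hm _ (conj_mem_of_mem_normalizer hnn (hDT (hD.zpow_mem m)))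
      have e2 : n * z * n⁻¹ = d * d := by
        calc n * z * n⁻¹ = n * x ^ (m : ℤ) * n⁻¹ * (n * x ^ (m : ℤ) * n⁻¹) := by rw [hz]; group
          _ = d * d := by
            rw [e, (show Commute b' d from (hc d hd b' hb').symm).mul_mul_mul_comm, hB2 b' hb',
              mul_one]
      refine (hcen _ (e2 ▸ D.mul_mem hd hd) (hcc z hzc)).resolve_left fun h => hzB ?_
      rw [show z = 1 by simpa using h]; exact B.one_mem
    have hf : ∀ b ∈ B, b ≠ 1 → z * (b * (n * b * n⁻¹)) ∈ B := fun b hb hb1 => by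
      have h1 := conj_mem_of_mem_normalizer hnn (hBT hb)
      obtain ⟨d, hd, b', hb', e⟩ := hm _ h1
      have h2 : ∀ t ∈ T, Commute t d := fun t ht => by
        have := (hcc b (hBc b hb) t ht).mul_right (hBc b' hb' t ht).inv_right
        rwa [e, mul_inv_cancel_right] at this
      rcases hcen d hd h2 with rfl | rfl
      · exfalso
        rw [one_mul] at e
        have h3 : b * b' ≠ 1 := fun h => hnT (hC b hb hb1 ⟨hnS, mem_centralizer_singleton_iff.2 (by
          rw [eq_inv_of_mul_eq_one_right h, inv_eq_of_mul_self (hB2 b hb)] at e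
          exact mul_inv_eq_iff_eq_mul.1 e)⟩)
        refine hnT (hC _ (B.mul_mem hb hb') h3 ⟨hnS, mem_centralizer_singleton_iff.2 ?_⟩)
        have h5 := (hBc b hb _ hn2).eq
        rw [← mul_inv_eq_iff_eq_mul]
        calc n * (b * b') * n⁻¹ = n * b * n⁻¹ * (n ^ 2 * b * (n ^ 2)⁻¹) := by rw [← e]; group
          _ = b * b' := by rw [h5, e, mul_inv_cancel_right, commute_of_mul_self hB2 hb' hb]
      · rw [e, ← mul_assoc b, (hzc b (hBT hb)).eq, mul_assoc, ← mul_assoc, hz2, one_mul]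
        exact B.mul_mem hb hb'
    obtain ⟨b1, hb1, h11, -⟩ := exists_mem_ne_of_card (U := B) (a := 1) (b := 1) (by omega)
    obtain ⟨b2, hb2, h21, h22⟩ := exists_mem_ne_of_card (U := B) (a := 1) (b := b1) (by omega)
    have h1 := hf b1 hb1 h11
    have h2 := hf b2 hb2 h21
    have h3 := hf _ (B.mul_mem hb1 hb2) fun h => h22 (by
      rw [eq_inv_of_mul_eq_one_right h, inv_eq_of_mul_self (hB2 b1 hb1)])
    have h5 := (hBc b2 hb2 _ (conj_mem_of_mem_normalizer hnn (hBT hb1))).mul_mul_mul_comm b1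
      (n * b2 * n⁻¹)
    have e : z * (b1 * b2 * (n * (b1 * b2) * n⁻¹)) = z * (b1 * (n * b1 * n⁻¹)) *
        (z * (b2 * (n * b2 * n⁻¹))) * z := by
      have h6 := hzc _ (T.mul_mem (hBT hb2) (conj_mem_of_mem_normalizer hnn (hBT hb2)))
      rw [mul_assoc _ _ z, mul_assoc z _ z, h6.eq, ← mul_assoc z z, hz2, one_mul, mul_assoc z, h5]
      group
    rw [e] at h3
    exact hzB ((B.mul_mem_cancel_left (B.mul_mem h1 h2)).1 h3)
  have h1 := H2.card_sup_mul_card_inf D B hn
  rw [hsup, hi, card_bot, mul_one, hD.card, h4] at h1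
  have h2 := card_eq_relIndex_mul_of_le (hD.zpowers_le.trans hDT)
  rw [Nat.card_zpowers, hD.ord, h1] at h2
  have h3 := hD.pos
  exact ((sr_zpowers x).of_relIndex (b := 8) (by nlinarith)).mono hST

end Cfsg.Agent.H6
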