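import Cfsg.Agent.Lib.H6.SecRank

/-! Taussky's theorem and `2`-groups with an involution whose centralizer is elementary of
order eight (helper6). -/

set_option autoImplicit false
set_option linter.style.haveILetI false
open Cfsg Subgroup
open scoped Pointwise commutatorElement

namespace Cfsg.Agent.H6

universe u

theorem taussky_aux (n : ℕ) : ∀ (G : Type u) [Group G] [Finite G], Nat.card G = n →
    IsPGroup 2 G → (commutator G).index ≤ 4 →
    (∃ t : G, (zpowers t).index ≤ 2) ∧ (¬ IsMulCommutative G → Nat.card (center G) ≤ 2) := by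
  induction n using Nat.strong_induction_on with
  | _ n ih =>
  intro G _ _ hn hG h4
  have hcard : ∀ t : G, ∀ k, k ≤ orderOf t → Nat.card G ≤ 2 * k → (zpowers t).index ≤ 2 := by
    intro t k hk hc
    have h1 := (zpowers t).index_mul_card
    rw [Nat.card_zpowers] at h1
    have h2 : 0 < orderOf t := orderOf_pos t
    refine Nat.le_of_mul_le_mul_right ?_ h2
    rw [h1]; nlinarith
  by_cases hab : IsMulCommutative G
  · refine ⟨?_, fun h => (h hab).elim⟩
    have h1 : commutator G = ⊥ := (commutator_eq_bot_iff G).2 hab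
    rw [h1, index_bot] at h4
    by_cases ht : ∃ t : G, t ≠ 1
    · obtain ⟨t, ht⟩ := ht
      refine ⟨t, hcard t 2 ?_ h4⟩
      have := orderOf_pos t
      have : orderOf t ≠ 1 := fun h => ht (orderOf_eq_one_iff.1 h)
      omega
    · push Not at ht
      refine ⟨1, hcard 1 1 (by simp) ?_⟩
      have : Subsingleton G := ⟨fun a b => by rw [ht a, ht b]⟩
      rw [Nat.card_of_subsingleton (1 : G)]; omega
  obtain ⟨z, hz, hz1, hz2, hzc⟩ := H9.exists_mem_centralizer_ne_one (p := 2) (N := commutator G)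
    (P := ⊤) (hG.to_subgroup _) (hG.to_subgroup _) le_normalizer_of_normal
    (H9.commutator_ne_bot hab)
  have hzz : z * z = 1 := by rw [← pow_two]; exact hz2
  have hzo : orderOf z = 2 := orderOf_eq_two hzz hz1
  haveI hN : (zpowers z).Normal := ⟨fun a ha g => by
    have : g * a = a * g := by
      obtain ⟨i, rfl⟩ := mem_zpowers_iff.1 ha
      exact ((show Commute g z from hzc g (mem_top g)).zpow_right i).eq
    rw [this]; simpa using ha⟩
  have hlt : Nat.card (G ⧸ zpowers z) < n := hn ▸ H2.card_quotient_lt (by simpa using hz1)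
  have hidx : (commutator (G ⧸ zpowers z)).index ≤ 4 := by
    have h1 : commutator (G ⧸ zpowers z) = (commutator G).map (QuotientGroup.mk' _) := by
      rw [map_commutator_eq, MonoidHom.range_eq_top.2 (QuotientGroup.mk'_surjective _)]; rfl
    rw [h1, index_map_eq _ (QuotientGroup.mk'_surjective _)
      (by rw [QuotientGroup.ker_mk']; simpa using hz)]
    exact h4
  obtain ⟨⟨tb, htb⟩, -⟩ := ih _ hlt (G ⧸ zpowers z) rfl (hG.to_quotient _) hidx
  obtain ⟨t, rfl⟩ := QuotientGroup.mk'_surjective _ tb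
  set H : Subgroup G := zpowers t ⊔ zpowers z with hH
  have hHi : H.index ≤ 2 := by
    have : H = (zpowers (QuotientGroup.mk' (zpowers z) t)).comap (QuotientGroup.mk' _) := by
      rw [← MonoidHom.map_zpowers, comap_map_eq, QuotientGroup.ker_mk']
    rw [this, index_comap_of_surjective _ (QuotientGroup.mk'_surjective _)]
    exact htb
  have htz : Commute t z := hzc t (mem_top t)
  have hHc : ∀ a ∈ H, ∀ b ∈ H, a * b = b * a := by
    intro a ha b hb
    obtain ⟨i, j, rfl⟩ := (mem_zpowers_sup htz).1 ha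
    obtain ⟨k, l, rfl⟩ := (mem_zpowers_sup htz).1 hb
    exact (((Commute.refl t).zpow_zpow i k).mul_right (htz.zpow_zpow i l)).mul_left
      ((htz.symm.zpow_zpow j k).mul_right ((Commute.refl z).zpow_zpow j l))
  have hna : ¬ ∀ a ∈ (⊤ : Subgroup G), ∀ b ∈ (⊤ : Subgroup G), a * b = b * a := fun h =>
    hab ⟨⟨fun a b => h a (mem_top a) b (mem_top b)⟩⟩
  have hH2 : H.index = 2 := by
    have h0 : H.index ≠ 0 := index_ne_zero_of_finite
    have h1 : H.index ≠ 1 := fun h => hna (by rw [← index_eq_one.1 h]; exact hHc)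
    omega
  have hA : H9.AbIdx 2 ⊤ H := ⟨hG.to_subgroup _, le_top, hHc, by rw [relIndex_top_right, hH2], hna⟩
  have hZ : Nat.card (center G) ≤ 2 := by
    have h1 := hA.relIndex_center
    have h2 := hA.center_le
    rw [top_inf_eq, coe_top, centralizer_univ] at h1 h2
    have h3 := card_eq_relIndex_mul_of_le h2
    have h5 := H.index_mul_card
    have h6 := (commutator G).index_mul_card
    rw [h1, ← commutator_def] at h3
    have h7 : 0 < Nat.card (commutator G) := Nat.card_pos
    rw [hH2, h3, ← h6] at h5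
    have h8 : Nat.card (commutator G) * (2 * Nat.card (center G)) ≤ Nat.card (commutator G) * 4 := by
      nlinarith
    have := Nat.le_of_mul_le_mul_left h8 h7
    omega
  refine ⟨?_, fun _ => hZ⟩
  by_cases hzt : z ∈ zpowers t
  · refine ⟨t, ?_⟩
    rwa [hH, sup_eq_left.2 (by simpa using hzt)] at hHi
  have hHn : H.Normal := normal_of_index_eq_two hH2
  have ht2 : t * t = 1 := by
    by_contra ht2
    have hn2 : (⊤ : Subgroup G) ≤ normalizer (zpowers (t * t) : Set G) := fun g _ => by
      refine mem_normalizer_zpowers ?_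
      obtain ⟨i, j, hij⟩ := (mem_zpowers_sup htz).1
        (hHn.conj_mem t (mem_sup_left (mem_zpowers t)) g)
      have e : g * (t * t) * g⁻¹ = (t * t) ^ i := by
        calc g * (t * t) * g⁻¹ = (g * t * g⁻¹) * (g * t * g⁻¹) := by group
          _ = t ^ i * t ^ i * (z ^ j * z ^ j) := by
            rw [hij]; exact (htz.zpow_zpow i j).symm.mul_mul_mul_comm _ _
          _ = (t * t) ^ i := by
            rw [← (Commute.refl z).mul_zpow, hzz, one_zpow, mul_one, (Commute.refl t).mul_zpow]
      rw [e]; exact zpow_mem (mem_zpowers _) i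
    obtain ⟨y, hy, hy1, -, hyc⟩ := H9.exists_mem_centralizer_ne_one (p := 2)
      (N := zpowers (t * t)) (P := ⊤) (hG.to_subgroup _) (hG.to_subgroup _) hn2 (by simpa using ht2)
    have hyz : y = z := by
      by_contra hne
      have h1 : zpowers z = center G := eq_of_le_of_card_ge
        (by simpa using mem_center_iff.2 fun g => hzc g (mem_top g))
        (by rw [Nat.card_zpowers, hzo]; exact hZ)
      have h2 : y ∈ zpowers z := h1 ▸ mem_center_iff.2 fun g => hyc g (mem_top g)
      exact hne (eq_of_mem_zpowers_of_orderOf_two hzo h2 hy1)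
    exact hzt (hyz ▸ zpowers_le_of_mem ((zpowers t).mul_mem (mem_zpowers t) (mem_zpowers t)) hy)
  have hH4 : Nat.card H ≤ 4 := by
    have h1 := card_sup_zpowers_le (H := zpowers t) (s := z)
      (mem_normalizer_zpowers (by rw [← htz.eq]; simp)) (by rw [hzz]; exact one_mem _)
    rw [Nat.card_zpowers, ← hH] at h1
    have : orderOf t ≤ 2 := orderOf_le_of_pow_eq_one two_pos (by rw [pow_two, ht2])
    omega
  have h8 : Nat.card G ≤ 2 * 4 := by rw [← H.index_mul_card, hH2]; omega
  obtain ⟨g, hg⟩ : ∃ g : G, g * g ≠ 1 := by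
    by_contra h
    push Not at h
    exact hna fun a ha b hb => commute_of_mul_self (fun x _ => h x) ha hb
  refine ⟨g, hcard g 4 ?_ h8⟩
  obtain ⟨k, hk⟩ := exists_orderOf_eq_two_pow hG g
  refine two_pow_ge_of_gt (k := 1) ⟨k, hk⟩ ?_
  by_contra hle
  have h2 : orderOf g ∣ 2 := by
    rw [hk] at hle ⊢
    have : k ≤ 1 := by
      by_contra h; exact hle (Nat.pow_lt_pow_right (by norm_num) (by omega))
    interval_cases k <;> norm_num
  exact hg (by rw [← pow_two]; exact orderOf_dvd_iff_pow_eq_one.1 h2)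

variable {G : Type*} [Group G]

/-- Taussky: a nonabelian `2`-group whose derived subgroup has index four has centre of order
two (ambient form). -/
theorem taussky_center [Finite G] {P W : Subgroup G} (hP : IsPGroup 2 P) (hW : W ≤ P)
    (hc : ∀ w ∈ W, ∀ g ∈ P, g * w = w * g) (h2 : 2 < Nat.card W) (h4 : 4 < Nat.card P) :
    4 < (⁅P, P⁆).relIndex P := by
  by_contra hle
  have e : (⁅P, P⁆).subgroupOf P = commutator P := by
    rw [← P.map_subtype_commutator, subgroupOf, comap_map_eq_self_of_injective P.subtype_injective]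
  have h1 : (commutator P).index ≤ 4 := by rw [← e]; exact not_lt.1 hle
  have hna : ¬ IsMulCommutative P := fun h => by
    rw [(commutator_eq_bot_iff P).2 h, index_bot] at h1; omega
  have h3 := (taussky_aux _ P rfl hP h1).2 hna
  have h5 : W.subgroupOf P ≤ center P := fun w hw =>
    mem_center_iff.2 fun g => Subtype.ext (hc _ hw _ g.2)
  have h6 := H9.card_le_of_le' h5
  rw [Nat.card_congr (subgroupOfEquivOfLe hW).toEquiv] at h6
  omega

/-- The hypothesis of "Lemma P". -/
structure LP (P W : Subgroup G) (a : G) : Prop where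
  pgroup : IsPGroup 2 P
  four : IsKleinFour W
  le : W ≤ P
  cent : ∀ w ∈ W, ∀ g ∈ P, g * w = w * g
  mem : a ∈ P
  not_mem : a ∉ W
  sq : a * a = 1
  cen : ∀ g ∈ P, g * a = a * g → g ∈ W ∨ g * a ∈ W

namespace LP

variable {P W : Subgroup G} {a : G}

theorem W_sq (h : LP P W a) {w : G} (hw : w ∈ W) : w * w = 1 := (isKleinFour_iff.1 h.four).2 w hw

theorem W_card (h : LP P W a) : Nat.card W = 4 := (isKleinFour_iff.1 h.four).1

theorem mul (h : LP P W a) {w : G} (hw : w ∈ W) : LP P W (w * a) where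
  pgroup := h.pgroup
  four := h.four
  le := h.le
  cent := h.cent
  mem := P.mul_mem (h.le hw) h.mem
  not_mem := fun h1 => h.not_mem ((W.mul_mem_cancel_left hw).1 h1)
  sq := by rw [mul_assoc, ← mul_assoc a, h.cent w hw a h.mem, mul_assoc, h.sq, mul_one, h.W_sq hw]
  cen := fun g hg he => by
    have h1 := h.cent w hw g hg
    have : g * a = a * g := by
      rw [← mul_assoc, h1, mul_assoc, mul_assoc] at he; exact mul_left_cancel he
    refine (h.cen g hg this).imp id fun h2 => ?_
    rw [← mul_assoc, h1, mul_assoc]; exact W.mul_mem hw h2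

theorem a_norm (h : LP P W a) : a ∈ normalizer (W : Set G) :=
  centralizer_le_normalizer _ (mem_centralizer_iff.2 fun w hw => (h.cent w hw a h.mem).symm)

variable [Finite G]

theorem inf_eq (h : LP P W a) : P ⊓ centralizer ({a} : Set G) = W ⊔ zpowers a := by
  have hi := inv_eq_of_mul_self h.sq
  ext g
  rw [mem_sup_zpowers h.a_norm (by rw [h.sq]; exact one_mem _), hi, mem_inf,
    mem_centralizer_singleton_iff]
  refine ⟨fun hg => h.cen g hg.1 hg.2, ?_⟩
  rintro (hg | hg)
  · exact ⟨h.le hg, (h.cent g hg a h.mem).symm⟩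
  · have e : g = g * a * a := by rw [mul_assoc, h.sq, mul_one]
    refine ⟨e ▸ P.mul_mem (h.le hg) h.mem, ?_⟩
    have := h.cent _ hg a h.mem
    rw [← mul_assoc, ← e] at this
    calc g * a = a * (a * g * a) := by rw [← mul_assoc, ← mul_assoc, h.sq, one_mul]
      _ = a * g := by rw [this]

theorem card_inf (h : LP P W a) :
    Nat.card (P ⊓ centralizer ({a} : Set G) : Subgroup G) = 8 := by
  rw [h.inf_eq, card_sup_zpowers_eq h.a_norm (by rw [h.sq]; exact one_mem _) h.not_mem, h.W_card]

theorem card_eq (h : LP P W a) : Nat.card P = 8 * Nat.card (⁅P, P⁆ : Subgroup G) ∧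
    (centralizer ({a} : Set G)).relIndex P = Nat.card (⁅P, P⁆ : Subgroup G) := by
  have h1 := relIndex_centralizer_le (H := P) (N := ⁅P, P⁆) (x := a)
    fun g hg => commutator_mem_commutator hg h.mem
  have h2 := H9.card_eq_relIndex_mul' (K := centralizer ({a} : Set G)) (L := P)
  rw [inf_comm, h.card_inf] at h2
  have h3 : 8 ≤ Nat.card P := h.card_inf ▸ H9.card_le_of_le' inf_le_left
  have h4 := taussky_center h.pgroup h.le h.cent (by rw [h.W_card]; omega) (by omega)
  have h5 : 2 ^ (2 + 1) ≤ _ := two_pow_ge_of_gt (H9.exists_relIndex_eq_pow h.pgroup) h4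
  have h6 := card_eq_relIndex_mul_of_le (P.commutator_le_self)
  have h7 : 8 * Nat.card (⁅P, P⁆ : Subgroup G) ≤ Nat.card P := by
    rw [h6]; exact Nat.mul_le_mul_right _ h5
  omega

theorem relIndex_eq (h : LP P W a) : (⁅P, P⁆).relIndex P = 8 := by
  have h6 := card_eq_relIndex_mul_of_le (P.commutator_le_self)
  rw [h.card_eq.1] at h6
  exact (Nat.eq_of_mul_eq_mul_right Nat.card_pos h6).symm

theorem exists_comm (h : LP P W a) {y : G} (hy : y ∈ ⁅P, P⁆) : ∃ g ∈ P, ⁅g, a⁆ = y :=
  H9.exists_commutator_eq_of_card (fun _ hg => commutator_mem_commutator hg h.mem)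
    h.card_eq.2.ge hy

theorem inverts (h : LP P W a) {y : G} (hy : y ∈ ⁅P, P⁆) : a * y * a⁻¹ = y⁻¹ := by
  obtain ⟨g, -, rfl⟩ := h.exists_comm hy
  have hi := inv_eq_of_mul_self h.sq
  rw [commutatorElement_inv, commutatorElement_def, commutatorElement_def, hi]
  calc a * (g * a * g⁻¹ * a) * a = a * g * a * g⁻¹ * (a * a) := by group
    _ = a * g * a * g⁻¹ := by rw [h.sq, mul_one]

theorem comm (h : LP P W a) {x y : G} (hx : x ∈ ⁅P, P⁆) (hy : y ∈ ⁅P, P⁆) : x * y = y * x :=
  EC.comm_of_inverts (fun _ hd => h.inverts hd) hx hy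

/-- `a` is not congruent to a square modulo the derived subgroup. -/
theorem not_sq (h : LP P W a) {g : G} (hg : g ∈ P) : g * g * a ∉ ⁅P, P⁆ := by
  intro hm
  obtain ⟨k, hk, e⟩ := h.exists_comm hm
  rw [commutatorElement_def, inv_eq_of_mul_self h.sq, mul_left_inj] at e
  have e2 : (k⁻¹ * g * k) * (k⁻¹ * g * k) = a := by
    calc (k⁻¹ * g * k) * (k⁻¹ * g * k) = k⁻¹ * (g * g) * k := by group
      _ = a := by rw [← e]; group
  have hx : k⁻¹ * g * k ∈ P := P.mul_mem (P.mul_mem (P.inv_mem hk) hg) hk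
  generalize k⁻¹ * g * k = x at e2 hx
  have hc : x * a = a * x := by rw [← e2, mul_assoc]
  rcases h.cen x hx hc with h1 | h1
  · exact h.not_mem (e2 ▸ W.mul_mem h1 h1)
  · apply h.not_mem
    have := W.mul_mem h1 h1
    rwa [mul_assoc, ← mul_assoc a, ← hc, mul_assoc, h.sq, mul_one, e2] at this

theorem not_mem_comm (h : LP P W a) : a ∉ ⁅P, P⁆ := by
  simpa using h.not_sq P.one_mem

theorem omega (h : LP P W a) {y : G} (hy : y ∈ ⁅P, P⁆) (h2 : y * y = 1) : y ∈ W := by
  have hc := commute_of_inverts_of_mul_self (h.inverts hy) h2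
  refine (h.cen y (P.commutator_le_self hy) hc.eq).resolve_right fun h1 => ?_
  apply (h.mul h1).not_mem_comm
  rwa [mul_assoc, h.sq, mul_one]

theorem sr_comm (h : LP P W a) : SR ⁅P, P⁆ 4 := by
  rw [← h.W_card]
  exact sr_of_sq (sq_fibre_of_comm (fun _ hx _ hy => h.comm hx hy) fun _ hx => h.omega hx)

/-- elements of the coset of `a` are conjugate to `a`. -/
theorem exists_conj (h : LP P W a) {y : G} (hy : y ∈ ⁅P, P⁆) : ∃ g ∈ P, g * a * g⁻¹ = y * a := by
  obtain ⟨g, hg, rfl⟩ := h.exists_comm hy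
  exact ⟨g, hg, by rw [commutatorElement_def]; group⟩

end LP

end Cfsg.Agent.H6
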