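import Cfsg.Agent.Lib.H6.SecF

/-! A self-centralizing `Q₈ ∗ Q₈` gives a self-centralizing elementary group of order eight
(helper6). -/

set_option autoImplicit false
set_option linter.style.haveILetI false
open Cfsg Subgroup
open scoped Pointwise commutatorElement

namespace Cfsg.Agent.H6

variable {G : Type*} [Group G]

theorem exists_gens_q8 {Q : Subgroup G} (e : Q ≃* QuaternionGroup 2) : ∃ z i j : G, z ≠ 1 ∧
    z * z = 1 ∧ i * i = z ∧ j * j = z ∧ ⁅i, j⁆ = z ∧ Q = zpowers i ⊔ zpowers j ∧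
    (∀ y ∈ Q, y * y ∈ zpowers z) ∧ ∀ y ∈ Q, y * y = 1 → y ∈ zpowers z := by
  obtain ⟨a, x, ha, hx, hc, -, hQ, hm⟩ := H2.exists_gens_of_equiv_quaternion e
  have h1 : a * a ≠ 1 := fun h => by
    have := orderOf_le_of_pow_eq_one two_pos ((pow_two a).trans h); omega
  have h2 : a * a * (a * a) = 1 := by
    have := pow_orderOf_eq_one a
    rw [ha] at this; rw [← this, pow_mul, pow_two, pow_two]
  have h3 : ∀ i : ℤ, x * a ^ i * (x * a ^ i) = a * a := fun i => by
    have := conj_zpow_of_inverts hc i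
    calc x * a ^ i * (x * a ^ i) = x * a ^ i * x⁻¹ * (x * x) * a ^ i := by group
      _ = a * a := by rw [this, hx, ← pow_two]; group
  refine ⟨a * a, a, x, h1, h2, rfl, hx.trans (pow_two a), commutator_eq_sq_of_inverts hc, hQ,
    fun y hy => ?_, fun y hy h => ?_⟩
  · obtain ⟨i, rfl | rfl⟩ := hm y hy
    · rw [← (Commute.refl a).mul_zpow]; exact zpow_mem (mem_zpowers _) i
    · rw [h3]; exact mem_zpowers _
  · obtain ⟨i, rfl | rfl⟩ := hm y hy
    · by_cases h4 : a ^ i = 1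
      · rw [h4]; exact one_mem _
      · rw [eq_of_mem_zpowers_of_mul_self (zpow_mem (mem_zpowers a) i)
          (mul_mem (mem_zpowers a) (mem_zpowers a)) (orderOf_eq_two h h4) (orderOf_eq_two h2 h1)]
        exact mem_zpowers _
    · exact (h1 ((h3 i).symm.trans h)).elim

theorem two_mul_card_inf_le [Finite G] (hG : IsPGroup 2 G) {H : Subgroup G} {x y : G} (hx : x ∈ H)
    (h : x * y ≠ y * x) :
    2 * Nat.card (H ⊓ centralizer ({y} : Set G) : Subgroup G) ≤ Nat.card H :=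
  H9.mul_card_le_of_lt (p := 2) (hG.to_subgroup H) (lt_of_le_of_ne inf_le_left fun h1 =>
    h (mem_centralizer_singleton_iff.1 (h1.ge hx).2))

theorem card_le_two_mul_inf [Finite G] {H : Subgroup G} {y z : G} (hz : z * z = 1)
    (h : ∀ g ∈ H, ⁅g, y⁆ ∈ zpowers z) :
    Nat.card H ≤ 2 * Nat.card (H ⊓ centralizer ({y} : Set G) : Subgroup G) := by
  have h1 := relIndex_centralizer_le h
  rw [Nat.card_zpowers] at h1
  rw [H9.card_eq_relIndex_mul' (K := centralizer ({y} : Set G)) (L := H), inf_comm]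
  exact Nat.mul_le_mul_right _ (h1.trans (orderOf_le_of_pow_eq_one two_pos (by rw [pow_two, hz])))

theorem q8q8_line [Finite G] (hG : IsPGroup 2 G) {Q : Subgroup G} (hQ : Nat.card Q = 32)
    {z i j u v : G} (hz1 : z ≠ 1) (hz : z * z = 1) (hzQ : z ∈ Q) (hzc : ∀ g ∈ Q, Commute g z)
    (hi : i ∈ Q) (hj : j ∈ Q) (hu : u ∈ Q) (hv : v ∈ Q) (hii : i * i = z) (hjj : j * j = z)
    (huu : u * u = z) (hvv : v * v = z) (hij : ⁅i, j⁆ = z) (huv : ⁅u, v⁆ = z)
    (c1 : Commute i u) (c2 : Commute i v) (c3 : Commute j u) (c4 : Commute j v) :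
    ∃ A ≤ Q, (∀ a ∈ A, a * a = 1) ∧ Nat.card A = 8 ∧ z ∈ A ∧ i * u ∈ A ∧ j * v ∈ A ∧
      Q ⊓ centralizer (A : Set G) ≤ A ∧ centralizer (Q : Set G) ⊓ Q ≤ zpowers z := by
  have hij' : i * j = z * (j * i) := by rw [← hij, commutatorElement_def]; group
  have huv' : u * v = z * (v * u) := by rw [← huv, commutatorElement_def]; group
  have ha : i * u * (i * u) = 1 := by rw [c1.symm.mul_mul_mul_comm, hii, huu, hz]
  have hb : j * v * (j * v) = 1 := by rw [c4.symm.mul_mul_mul_comm, hjj, hvv, hz]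
  have hab : Commute (i * u) (j * v) := by
    change i * u * (j * v) = j * v * (i * u)
    rw [c3.symm.mul_mul_mul_comm, c2.symm.mul_mul_mul_comm, hij', huv',
      (hzc _ (Q.mul_mem hj hi)).mul_mul_mul_comm, hz, one_mul]
  have n1 : j * (i * u) ≠ i * u * j := fun h => hz1 (by
    rw [mul_assoc, ← c3.eq, ← mul_assoc, ← mul_assoc, mul_left_inj, hij', eq_comm,
      mul_eq_right] at h; exact h)
  have n2 : i * (j * v) ≠ j * v * i := fun h => hz1 (by
    rw [mul_assoc, ← c2.eq, ← mul_assoc, ← mul_assoc, mul_left_inj, hij', mul_eq_right] at h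
    exact h)
  have haQ := Q.mul_mem hi hu
  have hbQ := Q.mul_mem hj hv
  have m : ∀ {x y : G}, Commute x y → x ∈ centralizer ({y} : Set G) := fun h =>
    mem_centralizer_singleton_iff.2 h.eq
  have k1 := two_mul_card_inf_le hG hj n1
  have k2 := two_mul_card_inf_le hG (H := Q ⊓ centralizer {i * u})
    ⟨hi, m ((Commute.refl i).mul_right c1)⟩ n2
  obtain ⟨A, hA⟩ : ∃ A, A = Q ⊓ centralizer {i * u} ⊓ centralizer {j * v} := ⟨_, rfl⟩
  rw [← hA] at k2
  have hzA : z ∈ A := hA ▸ ⟨⟨hzQ, m (hzc _ haQ).symm⟩, m (hzc _ hbQ).symm⟩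
  have haA : i * u ∈ A := hA ▸ ⟨⟨haQ, m (Commute.refl _)⟩, m hab⟩
  have hbA : j * v ∈ A := hA ▸ ⟨⟨hbQ, m hab.symm⟩, m (Commute.refl _)⟩
  have k3 := two_mul_card_inf_le hG haA n1.symm
  have k4 := two_mul_card_inf_le hG (H := A ⊓ centralizer {j})
    ⟨hbA, m ((Commute.refl j).mul_left c4.symm)⟩ n2.symm
  have hzo := orderOf_eq_two hz hz1
  have haz : i * u ∉ zpowers z := fun h => by
    rcases (mem_zpowers_two hz).1 h with h | h <;> rw [h] at n1
    exacts [n1 (by simp), n1 (hzc j hj)]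
  have hn1 : i * u ∈ normalizer (zpowers z : Set G) :=
    mem_normalizer_zpowers (by rw [(hzc _ haQ).eq, mul_inv_cancel_right]; simp)
  have hs1 : i * u * (i * u) ∈ zpowers z := by rw [ha]; exact one_mem _
  have hF4 := card_sup_zpowers_eq hn1 hs1 haz
  rw [Nat.card_zpowers, hzo] at hF4
  obtain ⟨F, hF⟩ : ∃ F, F = zpowers z ⊔ zpowers (i * u) := ⟨_, rfl⟩
  have hFc : ∀ g ∈ Q, Commute g (i * u) → ∀ x ∈ F, x * g = g * x := fun g hg h x hx =>
    H9.mul_comm_of_sup_zpowers hF.symm (fun b hb => by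
      obtain ⟨k, rfl⟩ := mem_zpowers_iff.1 hb
      exact ((hzc g hg).zpow_right k).symm.eq) h.symm.eq hx
  have hF2 : ∀ x ∈ F, x * x = 1 := fun x hx => by
    rw [hF, mem_sup_zpowers hn1 hs1, inv_eq_of_mul_self ha, mem_zpowers_two hz,
      mem_zpowers_two hz] at hx
    rcases hx with (rfl | rfl) | (h | h)
    · simp
    · exact hz
    · rw [eq_inv_of_mul_eq_one_left h, ← mul_inv_rev, ha, inv_one]
    · rw [eq_mul_inv_of_mul_eq h, (hzc _ haQ).inv_left.mul_mul_mul_comm, hz, ← mul_inv_rev, ha]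
      simp
  have hn2 : j * v ∈ normalizer (F : Set G) := centralizer_le_normalizer _
    (mem_centralizer_iff.2 (hFc _ hbQ hab.symm))
  have hs2 : j * v * (j * v) ∈ F := by rw [hb]; exact one_mem _
  have hE8 := card_sup_zpowers_eq hn2 hs2 fun h =>
    n2 (hFc i hi ((Commute.refl i).mul_right c1) _ h).symm
  rw [← hF] at hF4
  have hEA : F ⊔ zpowers (j * v) = A := eq_of_le_of_card_ge
    (sup_le (hF ▸ sup_le (zpowers_le_of_mem hzA) (zpowers_le_of_mem haA)) (zpowers_le_of_mem hbA))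
    (by omega)
  rw [hEA] at hE8
  refine ⟨A, hA ▸ inf_le_left.trans inf_le_left, fun x hx => ?_, by omega, hzA, haA, hbA,
    fun g hg => ?_, ?_⟩
  · rw [← hEA, mem_sup_zpowers hn2 hs2, inv_eq_of_mul_self hb] at hx
    rcases hx with h | h
    · exact hF2 x h
    · have h1 := hF2 _ h
      have h2 := hFc _ hbQ hab.symm _ h
      rw [← mul_assoc (j * v) x, mul_left_inj] at h2
      rwa [(show Commute (j * v) x from h2.symm).mul_mul_mul_comm, hb, mul_one] at h1
  · rw [hA]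
    exact ⟨⟨hg.1, m (mem_centralizer_iff.1 hg.2 _ haA).symm⟩,
      m (mem_centralizer_iff.1 hg.2 _ hbA).symm⟩
  · have h1 : centralizer (Q : Set G) ⊓ Q ≤ A ⊓ centralizer {j} ⊓ centralizer {i} := fun g hg => by
      have h2 : ∀ x ∈ Q, g ∈ centralizer ({x} : Set G) := fun x hx =>
        m (mem_centralizer_iff.1 hg.1 x hx).symm
      exact ⟨⟨hA ▸ ⟨⟨hg.2, h2 _ haQ⟩, h2 _ hbQ⟩, h2 _ hj⟩, h2 _ hi⟩
    have h2 := H9.card_le_of_le' h1
    refine (eq_of_le_of_card_ge (zpowers_le_of_mem (mem_inf.2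
      ⟨mem_centralizer_iff.2 fun g hg => hzc g hg, hzQ⟩)) ?_).ge
    rw [Nat.card_zpowers, hzo]; omega

theorem sr_of_q8q8 [Finite G] (hG : IsPGroup 2 G) {Q Q₁ Q₂ : Subgroup G}
    (e₁ : Q₁ ≃* QuaternionGroup 2) (e₂ : Q₂ ≃* QuaternionGroup 2)
    (hc : ∀ a ∈ Q₁, ∀ b ∈ Q₂, a * b = b * a) (hQ : Q₁ ⊔ Q₂ = Q) (h32 : Nat.card Q = 32)
    (hC : centralizer (Q : Set G) ≤ Q) : SR (⊤ : Subgroup G) 16 := by
  obtain ⟨z, i, j, hz1, hz, hii, hjj, hij, hQ1, hs1, ho1⟩ := exists_gens_q8 e₁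
  obtain ⟨z', u, v, hz1', hz', huu, hvv, huv, hQ2, hs2, ho2⟩ := exists_gens_q8 e₂
  have hn : Q₁ ≤ normalizer (Q₂ : Set G) := fun a ha => centralizer_le_normalizer _
    (mem_centralizer_iff.2 fun b hb => (hc a ha b hb).symm)
  obtain rfl : z = z' := by
    have h1 := H2.card_sup_mul_card_inf Q₁ Q₂ hn
    rw [hQ, h32, Nat.card_congr e₁.toEquiv, Nat.card_congr e₂.toEquiv, H2.natCard_quaternion] at h1
    obtain ⟨y, hy, hy2⟩ := exists_involution_of_even (H := Q₁ ⊓ Q₂) ⟨1, by omega⟩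
    have h2 := mul_self_of_orderOf_two hy2
    have h3 := ne_one_of_orderOf_two hy2
    exact (((mem_zpowers_two hz).1 (ho1 y hy.1 h2)).resolve_left h3).symm.trans
      (((mem_zpowers_two hz').1 (ho2 y hy.2 h2)).resolve_left h3)
  have hi1 : i ∈ Q₁ := hQ1 ▸ mem_sup_left (mem_zpowers i)
  have hj1 : j ∈ Q₁ := hQ1 ▸ mem_sup_right (mem_zpowers j)
  have hu2 : u ∈ Q₂ := hQ2 ▸ mem_sup_left (mem_zpowers u)
  have hv2 : v ∈ Q₂ := hQ2 ▸ mem_sup_right (mem_zpowers v)
  have h1Q : Q₁ ≤ Q := hQ ▸ le_sup_left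
  have h2Q : Q₂ ≤ Q := hQ ▸ le_sup_right
  have hz1Q : z ∈ Q₁ := hii ▸ Q₁.mul_mem hi1 hi1
  have hz2Q : z ∈ Q₂ := huu ▸ Q₂.mul_mem hu2 hu2
  have hm : ∀ g ∈ Q, ∃ a ∈ Q₁, ∃ b ∈ Q₂, g = a * b := fun g hg =>
    H2.exists_mul_of_mem_sup hn (hQ ▸ hg)
  have hzc : ∀ g ∈ Q, Commute g z := fun g hg => by
    obtain ⟨a, ha, b, hb, rfl⟩ := hm g hg
    exact (show Commute a z from hc a ha z hz2Q).mul_left (hc z hz1Q b hb).symm
  have hsec : Sec Q (zpowers z) := ⟨zpowers_le_of_mem (h1Q hz1Q),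
    fun g hg => mem_normalizer_zpowers (by rw [(hzc g hg).eq]; simp), fun g hg => by
      obtain ⟨a, ha, b, hb, rfl⟩ := hm g hg
      rw [(show Commute b a from (hc a ha b hb).symm).mul_mul_mul_comm]
      exact mul_mem (hs1 a ha) (hs2 b hb)⟩
  have huv' : u * v = z * (v * u) := by rw [← huv, commutatorElement_def]; group
  have huv2 := Q₂.mul_mem hu2 hv2
  obtain ⟨A0, hA0, s0, c0, z0, a0, b0, d0, hZ⟩ := q8q8_line hG h32 hz1 hz (h1Q hz1Q) hzc (h1Q hi1)
    (h1Q hj1) (h2Q hu2) (h2Q hv2) hii hjj huu hvv hij huv (hc _ hi1 _ hu2) (hc _ hi1 _ hv2)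
    (hc _ hj1 _ hu2) (hc _ hj1 _ hv2)
  obtain ⟨A1, hA1, s1, c1, z1, a1, b1, d1, -⟩ := q8q8_line hG h32 hz1 hz (h1Q hz1Q) hzc (h1Q hi1)
    (h1Q hj1) (h2Q hv2) (h2Q huv2) hii hjj hvv (u := v) (v := u * v) (by
      nth_rewrite 2 [huv']
      rw [mul_assoc u, ← mul_assoc v, (hzc v (h2Q hv2)).eq, mul_assoc z, ← mul_assoc v, hvv,
        ← mul_assoc z, hz, one_mul, huu]) hij (by
      rw [commutator_mul_right', commutatorElement_self, ← commutatorElement_inv, huv,
        inv_eq_of_mul_self hz]; simp) (hc _ hi1 _ hv2) (hc _ hi1 _ huv2)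
    (hc _ hj1 _ hv2) (hc _ hj1 _ huv2)
  have hZ' : centralizer (Q : Set G) = zpowers z := le_antisymm (fun g hg => hZ ⟨hg, hC hg⟩)
    (zpowers_le_of_mem (mem_centralizer_iff.2 fun g hg => hzc g hg))
  have hgen : ∀ g, Commute g i → Commute g j → Commute g u → Commute g v → g ∈ zpowers z := by
    intro g g1 g2 g3 g4
    rw [← hZ']
    refine mem_centralizer_iff.2 fun x hx => ?_
    obtain ⟨a, ha, b, hb, rfl⟩ := hm x hx
    have k : ∀ {x y : G}, Commute g x → ∀ b ∈ zpowers x, b * g = g * b := fun h b hb => by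
      obtain ⟨k, rfl⟩ := mem_zpowers_iff.1 hb
      exact (h.zpow_right k).symm.eq
    exact (show Commute a g from H9.mul_comm_of_sup_zpowers hQ1.symm (k (y := g) g1) g2.symm.eq
      ha).mul_left (H9.mul_comm_of_sup_zpowers hQ2.symm (k (y := g) g3) g4.symm.eq hb)
  have hNz : normalizer (Q : Set G) ≤ normalizer (zpowers z : Set G) := fun g hg => by
    rw [← cj_eq_self_iff] at hg ⊢
    rw [← hZ', cj_centralizer, hg]
  obtain ⟨x, hxQ, hxz, -, hxc⟩ := H9.exists_mem_commutator_mem_of_lt (p := 2) (K := zpowers z)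
    (N := Q) (P := normalizer (Q : Set G)) (hG.to_subgroup _) le_normalizer hNz le_rfl
    (lt_of_le_of_ne hsec.le fun h => by
      rw [← h, Nat.card_zpowers, orderOf_eq_two hz hz1] at h32; omega)
  -- elements of the normalizer acting trivially modulo `z` are in `Q`
  have hinn : ∀ g ∈ normalizer (Q : Set G), (∀ y ∈ Q, ⁅g, y⁆ ∈ zpowers z) → g ∈ Q := by
    intro g hg h1
    let H : Subgroup G :=
      { carrier := {g | g ∈ normalizer (Q : Set G) ∧ ∀ y ∈ Q, ⁅g, y⁆ ∈ zpowers z}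
        one_mem' := ⟨one_mem _, by simp⟩
        mul_mem' := fun {a b} ha hb => ⟨mul_mem ha.1 hb.1, fun y hy => by
          rw [commutator_mul_left']
          exact mul_mem (conj_mem_of_mem_normalizer (hNz ha.1) (hb.2 y hy)) (ha.2 y hy)⟩
        inv_mem' := fun {a} ha => ⟨inv_mem ha.1, fun y hy => by
          have := conj_mem_of_mem_normalizer' (hNz ha.1) (inv_mem (ha.2 y hy))
          convert this using 1
          simp only [commutatorElement_def]; group⟩ }
    have k1 := card_le_two_mul_inf (H := H) hz fun g hg => hg.2 i (h1Q hi1)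
    have k2 := card_le_two_mul_inf (H := H ⊓ centralizer {i}) hz fun g hg => hg.1.2 j (h1Q hj1)
    have k3 := card_le_two_mul_inf (H := H ⊓ centralizer {i} ⊓ centralizer {j}) hz
      fun g hg => hg.1.1.2 u (h2Q hu2)
    have k4 := card_le_two_mul_inf (H := H ⊓ centralizer {i} ⊓ centralizer {j} ⊓ centralizer {u}) hz
      fun g hg => hg.1.1.1.2 v (h2Q hv2)
    have k5 := H9.card_le_of_le' (show H ⊓ centralizer {i} ⊓ centralizer {j} ⊓ centralizer {u} ⊓
      centralizer {v} ≤ zpowers z from fun g hg => hgen g (mem_centralizer_singleton_iff.1 hg.1.1.1.2)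
        (mem_centralizer_singleton_iff.1 hg.1.1.2) (mem_centralizer_singleton_iff.1 hg.1.2)
        (mem_centralizer_singleton_iff.1 hg.2))
    rw [Nat.card_zpowers, orderOf_eq_two hz hz1] at k5
    exact (eq_of_le_of_card_ge (show Q ≤ H from fun y hy =>
      ⟨le_normalizer hy, fun y' hy' => hsec.comm_mem hy hy'⟩) (by omega)).ge ⟨hg, h1⟩
  have key : ∀ A ≤ Q, (∀ a ∈ A, a * a = 1) → Nat.card A = 8 → z ∈ A →
      Q ⊓ centralizer (A : Set G) ≤ A → x ∉ A → SR (⊤ : Subgroup G) 16 := by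
    intro A hA s c hzA d hxA
    have hzA' : zpowers z ≤ A := zpowers_le_of_mem hzA
    have hQA : Q ≤ normalizer (A : Set G) :=
      H9.le_normalizer_of_commutator_le hA (hsec.commutator_le.trans hzA')
    have hQC : Q ≤ normalizer ((centralizer (A : Set G) : Subgroup G) : Set G) := fun g hg => by
      have := hQA hg
      rw [← cj_eq_self_iff] at this ⊢
      rw [cj_centralizer, this]
    refine sr_of_selfCentralizing_eight hG s c fun g hg => d ⟨?_, hg⟩
    by_contra hgQ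
    obtain ⟨g, hg, hgQ, hgn, -⟩ := H9.exists_mem_normalizer_of_not_le (p := 2) (S := ⊤)
      (hG.to_subgroup _) le_top le_top hQC fun h => hgQ (h hg)
    refine hgQ (hinn g hgn fun y hy => ?_)
    have hs : x * x ∈ A := hzA' (hsec.sq x hxQ)
    have hM := card_sup_zpowers_eq (hQA hxQ) hs hxA
    have hMQ : A ⊔ zpowers x ≤ Q := sup_le hA (zpowers_le_of_mem hxQ)
    have hMz : ∀ y ∈ A ⊔ zpowers x, ⁅g, y⁆ ∈ zpowers z := fun y hy => by
      rcases (mem_sup_zpowers (hQA hxQ) hs).1 hy with h | h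
      · rw [commutatorElement_eq_one_iff_mul_comm.2 (mem_centralizer_iff.1 hg y h).symm]
        exact one_mem _
      · rw [← inv_mul_cancel_right y x, commutator_mul_right',
          commutatorElement_eq_one_iff_mul_comm.2 (mem_centralizer_iff.1 hg _ h).symm, one_mul]
        exact hsec.conj_mem (hA h) (hxc g hgn)
    by_cases hyM : y ∈ A ⊔ zpowers x
    · exact hMz y hyM
    have hi2 : (A ⊔ zpowers x).relIndex Q = 2 := by
      have := card_eq_relIndex_mul_of_le hMQ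
      rw [hM, c] at this; omega
    have hzg : ∀ w ∈ zpowers z, g * w * g⁻¹ = w := fun w hw => by
      rw [← mem_centralizer_iff.1 hg w (hzA' hw), mul_inv_cancel_right]
    have hzq : ∀ w ∈ zpowers z, ∀ q ∈ Q, Commute q w := fun w hw q hq => by
      obtain ⟨k, rfl⟩ := mem_zpowers_iff.1 hw
      exact (hzc q hq).zpow_right k
    have haA : ⁅g, y⁆ ∈ A := by
      refine d (mem_inf.2 ⟨mul_mem (conj_mem_of_mem_normalizer hgn hy) (inv_mem hy), ?_⟩)
      rw [commutatorElement_def, mul_assoc, mul_assoc, ← mul_assoc y]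
      exact mul_mem hg (conj_mem_of_mem_normalizer (hQC hy) (inv_mem hg))
    have e1 : g * y * g⁻¹ = ⁅g, y⁆ * y := by rw [commutatorElement_def]; group
    have cy : Commute ⁅g, y⁆ y := by
      have h1 := hzg _ (hsec.sq y hy)
      rw [show g * (y * y) * g⁻¹ = g * y * g⁻¹ * (g * y * g⁻¹) by group, e1, ← mul_assoc,
        mul_left_inj] at h1
      have h2 := s _ haA
      calc ⁅g, y⁆ * y = ⁅g, y⁆ * y * (⁅g, y⁆ * ⁅g, y⁆) := by rw [h2, mul_one]
        _ = y * ⁅g, y⁆ := by rw [← mul_assoc, h1]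
    have cx : Commute ⁅g, y⁆ x := by
      have h1 := hzg _ (hsec.comm_mem hxQ hy)
      have h2 := hxc g hgn
      have h3 := Q.mul_mem (hA haA) hy
      rw [conjugate_commutatorElement, e1, show g * x * g⁻¹ = ⁅g, x⁆ * x by
        rw [commutatorElement_def]; group, commutator_mul_left',
        commutatorElement_eq_one_iff_commute.2 (hzq _ h2 _ h3).symm, mul_one,
        ← (hzq _ h2 _ (hsec.le (hsec.comm_mem hxQ h3))).eq, mul_inv_cancel_right,
        commutator_mul_right', (hzq _ (hsec.comm_mem hxQ hy) _ (hA haA)).eq, mul_inv_cancel_right,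
        mul_eq_right, commutatorElement_eq_one_iff_commute] at h1
      exact h1.symm
    rw [← hZ']
    refine mem_centralizer_iff.2 fun q hq => ?_
    have hMc : ∀ q ∈ A ⊔ zpowers x, q * ⁅g, y⁆ = ⁅g, y⁆ * q := fun q hq =>
      H9.mul_comm_of_sup_zpowers rfl (fun b hb => commute_of_mul_self s hb haA) cx.symm.eq hq
    by_cases hqM : q ∈ A ⊔ zpowers x
    · exact hMc q hqM
    · have := cy.symm.mul_left (show Commute _ ⁅g, y⁆ from
        hMc _ (H9.inv_mul_mem_of_relIndex_two hi2 hy hq hyM hqM))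
      rwa [mul_inv_cancel_left] at this
  by_cases hx0 : x ∈ A0
  · refine key A1 hA1 s1 c1 z1 d1 fun hx1 => hxz ?_
    have k0 : ∀ a ∈ A0, Commute x a := fun a ha => commute_of_mul_self s0 hx0 ha
    have k1 : ∀ a ∈ A1, Commute x a := fun a ha => commute_of_mul_self s1 hx1 ha
    have g3 : Commute x u := by
      have := (k0 _ b0).inv_right.mul_right (k1 _ b1)
      rw [show (j * v)⁻¹ * (j * (u * v)) = v⁻¹ * u * v by group, mul_assoc, huv', ← mul_assoc,
        ((hzc v (h2Q hv2)).inv_left).eq, mul_assoc, inv_mul_cancel_left] at this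
      have := (hzc x hxQ).inv_right.mul_right this
      rwa [inv_mul_cancel_left] at this
    have g1 : Commute x i := by
      simpa using (k0 _ a0).mul_right g3.inv_right
    have g4 : Commute x v := by
      simpa using g1.inv_right.mul_right (k1 _ a1)
    have g2 : Commute x j := by
      simpa using (k0 _ b0).mul_right g4.inv_right
    exact hgen x g1 g2 g3 g4
  · exact key A0 hA0 s0 c0 z0 d0 hx0

end Cfsg.Agent.H6
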