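import Cfsg.Agent.Lib.H9.MaxClass
import Cfsg.Agent.Lib.H6.MC
import Cfsg.Agent.Lib.H1.Cores

/-! Elementary abelian sections of `2`-groups: general tools (helper6). -/

set_option autoImplicit false
set_option linter.style.haveILetI false
open Cfsg Subgroup
open scoped Pointwise commutatorElement

namespace Cfsg.Agent.H6

variable {G : Type*} [Group G]

/-- `K / L` is an elementary abelian `2`-section. -/
structure Sec (K L : Subgroup G) : Prop where
  le : L ≤ K
  norm : K ≤ normalizer (L : Set G)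
  sq : ∀ x ∈ K, x * x ∈ L

/-- Every elementary abelian `2`-section of `X` has order at most `n`. -/
def SR (X : Subgroup G) (n : ℕ) : Prop := ∀ K L : Subgroup G, K ≤ X → Sec K L → L.relIndex K ≤ n

theorem SR.mono {X Y : Subgroup G} {n : ℕ} (h : SR X n) (hY : Y ≤ X) : SR Y n :=
  fun K L hK hs => h K L (hK.trans hY) hs

theorem SR.mono_right {X : Subgroup G} {n m : ℕ} (h : SR X n) (hm : n ≤ m) : SR X m :=
  fun K L hK hs => (h K L hK hs).trans hm

namespace Sec

variable {K L : Subgroup G}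

theorem conj_mem (h : Sec K L) {g x : G} (hg : g ∈ K) (hx : x ∈ L) : g * x * g⁻¹ ∈ L :=
  conj_mem_of_mem_normalizer (h.norm hg) hx

theorem comm_mem (h : Sec K L) {x y : G} (hx : x ∈ K) (hy : y ∈ K) : ⁅x, y⁆ ∈ L := by
  have h1 := h.sq _ (K.mul_mem hx hy)
  have h2 := h.sq _ (K.inv_mem hx)
  have h3 := h.sq _ (K.inv_mem hy)
  have h4 := h.conj_mem hx h2
  have h5 := L.mul_mem (L.mul_mem h1 h3) (h.conj_mem hy h2)
  have e : ⁅x, y⁆ = (x * y * (x * y)) * (y⁻¹ * y⁻¹) * (y * (x⁻¹ * x⁻¹) * y⁻¹) := by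
    rw [commutatorElement_def]; group
  rw [e]; exact h5

theorem Phi_le (h : Sec K L) : H9.Phi 2 K ≤ L :=
  H9.Phi_le_iff.2 ⟨fun x hx => by rw [pow_two]; exact h.sq x hx, fun _ hx _ hy => h.comm_mem hx hy⟩

theorem commutator_le (h : Sec K L) : ⁅K, K⁆ ≤ L := (H9.commutator_le_Phi K).trans h.Phi_le

theorem inf [Finite G] (h : Sec K L) (M : Subgroup G) : Sec (K ⊓ M) (L ⊓ M) where
  le := inf_le_inf_right _ h.le
  norm := fun _ hg => mem_normalizer_of_conj_mem fun _ hx =>
    ⟨h.conj_mem hg.1 hx.1, M.mul_mem (M.mul_mem hg.2 hx.2) (M.inv_mem hg.2)⟩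
  sq := fun x hx => ⟨h.sq x hx.1, M.mul_mem hx.2 hx.2⟩

theorem map {Q : Type*} [Group Q] [Finite Q] (h : Sec K L) (f : G →* Q) :
    Sec (K.map f) (L.map f) where
  le := map_mono h.le
  norm := by
    rintro _ ⟨g, hg, rfl⟩
    refine mem_normalizer_of_conj_mem ?_
    rintro _ ⟨x, hx, rfl⟩
    exact ⟨_, h.conj_mem hg hx, by simp⟩
  sq := by
    rintro _ ⟨x, hx, rfl⟩
    exact ⟨_, h.sq x hx, by simp⟩

theorem cj [Finite G] (h : Sec K L) (g : G) : Sec (cj g K) (cj g L) := h.map _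

theorem card_eq (h : Sec K L) : Nat.card K = L.relIndex K * Nat.card L := by
  rw [H9.card_eq_relIndex_mul' (K := L) (L := K), inf_eq_left.2 h.le]

end Sec

theorem card_eq_relIndex_mul_of_le {K L : Subgroup G} (h : L ≤ K) :
    Nat.card K = L.relIndex K * Nat.card L := by
  rw [H9.card_eq_relIndex_mul' (K := L) (L := K), inf_eq_left.2 h]

/-- The index of a section splits along a homomorphism. -/
theorem relIndex_split [Finite G] {Q : Type*} [Group Q] {K L : Subgroup G} (h : L ≤ K)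
    (f : G →* Q) : L.relIndex K =
      (L ⊓ f.ker).relIndex (K ⊓ f.ker) * (L.map f).relIndex (K.map f) := by
  have h1 := H1.card_eq_card_inf_ker_mul_card_map K f
  have h2 := H1.card_eq_card_inf_ker_mul_card_map L f
  have h3 := card_eq_relIndex_mul_of_le h
  have h4 := card_eq_relIndex_mul_of_le (inf_le_inf_right f.ker h)
  have h5 := card_eq_relIndex_mul_of_le (map_mono (f := f) h)
  have hL : 0 < Nat.card L := Nat.card_pos
  refine Nat.eq_of_mul_eq_mul_right hL ?_
  rw [← h3, h1, h4, h5, h2]; ring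

theorem relIndex_split_normal [Finite G] {K L : Subgroup G} (h : L ≤ K) (M : Subgroup G)
    [M.Normal] : L.relIndex K = (L ⊓ M).relIndex (K ⊓ M) *
      (L.map (QuotientGroup.mk' M)).relIndex (K.map (QuotientGroup.mk' M)) := by
  have := relIndex_split h (QuotientGroup.mk' M)
  rwa [QuotientGroup.ker_mk'] at this

theorem relIndex_le_mul_relIndex_inf [Finite G] {K L : Subgroup G} (h : L ≤ K) (M : Subgroup G) :
    L.relIndex K ≤ (L ⊓ M).relIndex (K ⊓ M) * M.relIndex K := by
  have h1 : (L ⊓ M).relIndex (K ⊓ M) * (K ⊓ M).relIndex K = (L ⊓ M).relIndex K :=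
    relIndex_mul_relIndex _ _ _ (inf_le_inf_right _ h) inf_le_left
  rw [inf_comm K M, inf_relIndex_right, inf_comm M K] at h1
  rw [h1]
  exact relIndex_le_of_le_left inf_le_left H9.relIndex_pos.ne'

theorem SR.of_relIndex [Finite G] {X M : Subgroup G} {a b : ℕ} (h : SR M a)
    (hb : M.relIndex X ≤ b) : SR X (a * b) := fun K L hK hs =>
  (relIndex_le_mul_relIndex_inf hs.le M).trans <| Nat.mul_le_mul
    (h _ _ inf_le_right (hs.inf M))
    ((relIndex_le_of_le_right hK H9.relIndex_pos.ne').trans hb)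

theorem two_pow_le_or {n : ℕ} (h : ∃ i, n = 2 ^ i) (k : ℕ) : n ≤ 2 ^ k ∨ 2 ^ (k + 1) ≤ n := by
  obtain ⟨i, rfl⟩ := h
  rcases le_or_gt i k with h | h
  · exact Or.inl (Nat.pow_le_pow_right (by norm_num) h)
  · exact Or.inr (Nat.pow_le_pow_right (by norm_num) h)

theorem two_pow_le_of_lt {n k : ℕ} (h : ∃ i, n = 2 ^ i) (hn : n < 2 ^ (k + 1)) : n ≤ 2 ^ k :=
  (two_pow_le_or h k).resolve_right (by omega)

theorem two_pow_ge_of_gt {n k : ℕ} (h : ∃ i, n = 2 ^ i) (hn : 2 ^ k < n) : 2 ^ (k + 1) ≤ n :=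
  (two_pow_le_or h k).resolve_left (by omega)

theorem relIndex_two_pow [Finite G] (hG : IsPGroup 2 G) (L K : Subgroup G) :
    ∃ i, L.relIndex K = 2 ^ i := H9.exists_relIndex_eq_pow (hG.to_subgroup K)

theorem card_two_pow [Finite G] (hG : IsPGroup 2 G) (K : Subgroup G) :
    ∃ i, Nat.card K = 2 ^ i := H9.exists_card_eq_pow (hG.to_subgroup K)

theorem relIndex_le_card [Finite G] (L K : Subgroup G) : L.relIndex K ≤ Nat.card K := by
  rw [H9.card_eq_relIndex_mul' (K := L) (L := K)]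
  exact Nat.le_mul_of_pos_right _ Nat.card_pos

/-- the centralizer of an element has index at most the number of commutators. -/
theorem relIndex_centralizer_le [Finite G] {H N : Subgroup G} {x : G} (h : ∀ g ∈ H, ⁅g, x⁆ ∈ N) :
    (centralizer ({x} : Set G)).relIndex H ≤ Nat.card N := by
  have := H9.relIndex_cmod_le (K := ⊥) (H := H) (N := N) (x := x) le_normalizer_of_normal h
  rw [relIndex_bot_left] at this
  convert this using 2
  ext a
  rw [H9.mem_cmod, mem_centralizer_singleton_iff, mem_bot, commutatorElement_eq_one_iff_mul_comm]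
  exact ⟨fun h => ⟨le_normalizer_of_normal (K := ⊤) (mem_top a), h⟩, fun h => h.2⟩

theorem Sec.relIndex_le_card_centralizer [Finite G] {K L : Subgroup G} (h : Sec K L) {g : G}
    (hg : g ∈ K) : L.relIndex K ≤ Nat.card (K ⊓ centralizer ({g} : Set G) : Subgroup G) := by
  have h1 := relIndex_centralizer_le (H := K) (N := L) (x := g) fun k hk => h.comm_mem hk hg
  have h2 := H9.card_eq_relIndex_mul' (K := centralizer ({g} : Set G)) (L := K)
  have h3 := h.card_eq
  rw [inf_comm] at h2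
  have hL : 0 < Nat.card L := Nat.card_pos
  refine Nat.le_of_mul_le_mul_right ?_ hL
  rw [← h3, h2, mul_comm]
  exact Nat.mul_le_mul_left _ h1

theorem Sec.relIndex_lt_card_centralizer [Finite G] {K L : Subgroup G} (h : Sec K L) {g : G}
    (hg : g ∈ L) (h1 : g ≠ 1) :
    L.relIndex K < Nat.card (K ⊓ centralizer ({g} : Set G) : Subgroup G) := by
  refine lt_of_le_of_ne (h.relIndex_le_card_centralizer (h.le hg)) fun he => ?_
  have h2 := H9.card_eq_relIndex_mul' (K := centralizer ({g} : Set G)) (L := K)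
  have h3 := h.card_eq
  rw [inf_comm, ← he, h3, mul_comm] at h2
  have h4 : Nat.card L = (centralizer ({g} : Set G)).relIndex K :=
    Nat.eq_of_mul_eq_mul_right H9.relIndex_pos h2
  obtain ⟨k, -, hk⟩ := H9.exists_commutator_eq_of_card (H := K) (N := L) (x := g)
    (fun k hk => h.comm_mem hk (h.le hg)) h4.le (L.inv_mem hg)
  rw [commutatorElement_def, mul_eq_right] at hk
  exact h1 (by simpa using hk)

/-- Counting along a map whose fibres lie in cosets of `U`. -/
theorem card_le_mul_of_fibres {Q : Type*} [Group Q] {K U : Subgroup G} {L : Subgroup Q} [Finite L]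
    (φ : G → Q)
    (hφ : ∀ x ∈ K, φ x ∈ L) (h : ∀ x ∈ K, ∀ y ∈ K, φ x = φ y → x⁻¹ * y ∈ U) :
    U.relIndex K ≤ Nat.card L ∧
      (Nat.card L ≤ U.relIndex K → ∀ y ∈ L, ∃ x ∈ K, φ x = y) := by
  classical
  let ψ : K ⧸ U.subgroupOf K → L := fun q => ⟨φ q.out, hφ _ q.out.2⟩
  have hi : Function.Injective ψ := fun a b hab => by
    rw [← a.out_eq', ← b.out_eq', QuotientGroup.eq]
    exact h _ a.out.2 _ b.out.2 (congrArg Subtype.val hab)
  refine ⟨Nat.card_le_card_of_injective ψ hi, fun hc y hy => ?_⟩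
  obtain ⟨q, hq⟩ := (hi.bijective_of_nat_card_le hc).2 ⟨y, hy⟩
  exact ⟨q.out, q.out.2, congrArg Subtype.val hq⟩

theorem relIndex_le_of_card_le [Finite G] {K L : Subgroup G} (h : L ≤ K) {n : ℕ}
    (hn : Nat.card K ≤ n * Nat.card L) : L.relIndex K ≤ n := by
  rw [card_eq_relIndex_mul_of_le h] at hn
  exact Nat.le_of_mul_le_mul_right hn Nat.card_pos

theorem Sec.relIndex_le_of_sq [Finite G] {K L U : Subgroup G} (h : Sec K L)
    (hU : ∀ x ∈ K, ∀ y ∈ K, x * x = y * y → x⁻¹ * y ∈ U) :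
    L.relIndex K ≤ Nat.card U ∧
      (Nat.card U ≤ L.relIndex K → ∀ y ∈ L, ∃ x ∈ K, x * x = y) := by
  obtain ⟨h1, h2⟩ := card_le_mul_of_fibres (fun x => x * x) h.sq hU
  have h3 := H9.card_eq_relIndex_mul' (K := U) (L := K)
  have h4 : Nat.card (U ⊓ K : Subgroup G) ≤ Nat.card U := H9.card_le_of_le' inf_le_left
  have h5 := h.card_eq
  refine ⟨relIndex_le_of_card_le h.le ?_, fun hc => h2 ?_⟩
  · rw [h3, mul_comm]; exact Nat.mul_le_mul h4 h1
  · have hp : 0 < Nat.card U := Nat.card_pos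
    refine Nat.le_of_mul_le_mul_right ?_ hp
    calc Nat.card L * Nat.card U ≤ Nat.card L * L.relIndex K := Nat.mul_le_mul_left _ hc
      _ = U.relIndex K * Nat.card (U ⊓ K : Subgroup G) := by rw [← h3, h5, mul_comm]
      _ ≤ _ := Nat.mul_le_mul_left _ h4

theorem sq_fibre_of_comm {A U : Subgroup G} (hc : ∀ a ∈ A, ∀ b ∈ A, a * b = b * a)
    (hU : ∀ a ∈ A, a * a = 1 → a ∈ U) : ∀ x ∈ A, ∀ y ∈ A, x * x = y * y → x⁻¹ * y ∈ U := by
  intro x hx y hy he
  refine hU _ (A.mul_mem (A.inv_mem hx) hy) ?_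
  have := hc _ (A.inv_mem hx) _ hy
  calc x⁻¹ * y * (x⁻¹ * y) = x⁻¹ * (y * x⁻¹) * y := by group
    _ = x⁻¹ * x⁻¹ * (y * y) := by rw [← this]; group
    _ = 1 := by rw [← he]; group

theorem sr_of_sq [Finite G] {X U : Subgroup G}
    (hU : ∀ x ∈ X, ∀ y ∈ X, x * x = y * y → x⁻¹ * y ∈ U) : SR X (Nat.card U) :=
  fun _ _ hK hs => (hs.relIndex_le_of_sq fun x hx y hy => hU x (hK hx) y (hK hy)).1

theorem sr_zpowers [Finite G] (x : G) : SR (zpowers x) 2 := by
  by_cases h : ∃ z ∈ zpowers x, orderOf z = 2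
  · obtain ⟨z, hz, hz2⟩ := h
    have := sr_of_sq (X := zpowers x) (U := zpowers z) (sq_fibre_of_comm
      (isMulCommutative_iff'.1 inferInstance) fun a ha h2 => by
        by_cases h1 : a = 1
        · rw [h1]; exact one_mem _
        · rw [eq_of_mem_zpowers_of_mul_self ha hz (orderOf_eq_two h2 h1) hz2]
          exact mem_zpowers z)
    rwa [Nat.card_zpowers, hz2] at this
  · have := sr_of_sq (X := zpowers x) (U := ⊥) (sq_fibre_of_comm
      (isMulCommutative_iff'.1 inferInstance) fun a ha h2 => by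
        by_contra h1
        exact h ⟨a, ha, orderOf_eq_two h2 h1⟩)
    exact this.mono_right (by simp)

theorem sr_card [Finite G] (X : Subgroup G) : SR X (Nat.card X) := fun _ L hK _ =>
  (relIndex_le_card L _).trans (H9.card_le_of_le' hK)

/-- If the section is as large as the ambient group then it is the whole group. -/
theorem Sec.eq_of_card_le [Finite G] {K L X : Subgroup G} (h : Sec K L) (hK : K ≤ X)
    (hc : Nat.card X ≤ L.relIndex K) : K = X ∧ L = ⊥ := by
  have h1 := h.card_eq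
  have h2 := H9.card_le_of_le' hK
  have h3 : 0 < Nat.card L := Nat.card_pos
  have h4 : 0 < L.relIndex K := H9.relIndex_pos
  have h5 : Nat.card L = 1 := by
    by_contra h6
    have : L.relIndex K * 2 ≤ L.relIndex K * Nat.card L := Nat.mul_le_mul_left _ (by omega)
    omega
  refine ⟨eq_of_le_of_card_ge hK (by rw [h1, h5]; omega), card_eq_one.1 h5⟩

theorem sr_of_not_comm [Finite G] {X : Subgroup G} (hX : IsPGroup 2 X) {k : ℕ}
    (hc : Nat.card X ≤ 2 ^ (k + 1)) {a b : G} (ha : a ∈ X) (hb : b ∈ X) (hab : ⁅a, b⁆ ≠ 1) :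
    SR X (2 ^ k) := fun K L hK hs => by
  by_contra hlt
  have h1 := two_pow_ge_of_gt (H9.exists_relIndex_eq_pow (H := L) (hX.to_le hK))
    (not_le.1 hlt)
  obtain ⟨rfl, rfl⟩ := hs.eq_of_card_le hK (hc.trans h1)
  exact hab (mem_bot.1 (hs.comm_mem ha hb))

/-- A supplement to a subgroup of the Frattini subgroup is everything. -/
theorem Sec.le_of_sup [Finite G] {K L X A : Subgroup G} (h : Sec K L) (hX : IsPGroup 2 X)
    (hK : K ≤ X) (hA : A ≤ H9.Phi 2 X) (hs : X ≤ K ⊔ A) : A ≤ L := by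
  obtain rfl := H9.eq_of_le_sup_Phi hX hK (hs.trans (sup_le_sup_left hA _))
  exact hA.trans h.Phi_le

theorem sectionalPRankLE_of_sr [Finite G] {S : Subgroup G} (hS : SylIn 2 S ⊤) (h : SR S 16) :
    SectionalPRankLE 2 4 G := by
  intro H N _ A hA hA2
  obtain ⟨P, hP⟩ := exists_sylIn 2 (A.comap (QuotientGroup.mk' N))
  have hAp : IsPGroup 2 A := H2.isPGroup_of_forall_pow_eq_one hA2
  have hmap : P.map (QuotientGroup.mk' N) = A := by
    have hle : P.map (QuotientGroup.mk' N) ≤ A := map_le_iff_le_comap.2 hP.le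
    have h1 : (P.map (QuotientGroup.mk' N)).relIndex A ∣
        P.relIndex (A.comap (QuotientGroup.mk' N)) := by
      conv_lhs => rw [← map_comap_eq_self_of_surjective (QuotientGroup.mk'_surjective N) A]
      rw [relIndex_split hP.le (QuotientGroup.mk' N)]
      exact Dvd.intro_left _ rfl
    obtain ⟨i, hi⟩ := H9.exists_relIndex_eq_pow (H := P.map (QuotientGroup.mk' N)) hAp
    have h2 : i = 0 := by
      by_contra h0
      exact hP.not_dvd_relIndex ((hi ▸ dvd_pow_self 2 h0).trans h1)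
    rw [h2, pow_zero, relIndex_eq_one] at hi
    exact le_antisymm hle hi
  have hs : Sec P (P ⊓ N) := ⟨inf_le_left, fun g hg => mem_normalizer_of_conj_mem fun x hx =>
    ⟨P.mul_mem (P.mul_mem hg hx.1) (P.inv_mem hg), Normal.conj_mem inferInstance _ hx.2 _⟩,
    fun x hx => ⟨P.mul_mem hx hx, by
      have := hA2 _ (hP.le hx)
      rwa [← map_pow, QuotientGroup.mk'_apply, QuotientGroup.eq_one_iff, pow_two] at this⟩⟩
  have hc : Nat.card A = (P ⊓ N).relIndex P := by
    have h1 := H1.card_eq_card_inf_ker_mul_card_map P (QuotientGroup.mk' N)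
    rw [QuotientGroup.ker_mk', hmap, hs.card_eq, mul_comm] at h1
    exact (Nat.eq_of_mul_eq_mul_left Nat.card_pos h1).symm
  obtain ⟨g, -, hg⟩ := hS.exists_cj_le (hP.isPGroup.map H.subtype) le_top
  have := h _ _ hg ((hs.map H.subtype).cj g)
  rw [relIndex_cj, relIndex_map_map_of_injective _ _ H.subtype_injective] at this
  rw [hc]; exact this

theorem sectionalPRankLE_of_sr_top [Finite G] (hG : IsPGroup 2 G) (h : SR (⊤ : Subgroup G) 16) :
    SectionalPRankLE 2 4 G :=
  sectionalPRankLE_of_sr ⟨le_rfl, hG.to_subgroup _, fun _ _ h1 _ => top_le_iff.1 h1⟩ h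

end Cfsg.Agent.H6
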